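import Mathlib
import Cfsg.Agent.S4274
import Cfsg.Agent.Lib.J1Ord.UniqW

/-!
# The centralizers of elements of odd prime order in a simple group of order 175560
-/

set_option autoImplicit false

namespace Cfsg.Agent.Lib.J1Ord.O175

open Subgroup Cfsg.Agent.S4274

universe u

/-- Fixed points of a permutation of prime order. -/
theorem card_fixed_mod_of_perm {X : Type*} [Finite X] {p : ℕ} [hp : Fact p.Prime] (π : Equiv.Perm X)
    (hπ : π ^ p = 1) : Nat.card X ≡ Nat.card {x // π x = x} [MOD p] := by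
  classical
  have hP : IsPGroup p (zpowers π) := by
    intro g
    obtain ⟨g, k, rfl⟩ := g
    refine ⟨1, ?_⟩
    apply Subtype.ext
    show ((π ^ k) ^ p ^ 1 : Equiv.Perm X) = 1
    rw [pow_one, ← zpow_natCast, ← zpow_mul, mul_comm, zpow_mul, zpow_natCast, hπ, one_zpow]
  have h := hP.card_modEq_card_fixedPoints X
  have e : Nat.card (MulAction.fixedPoints (zpowers π) X) = Nat.card {x // π x = x} := by
    refine Nat.card_congr (Equiv.subtypeEquivRight (fun x => ?_))
    rw [MulAction.mem_fixedPoints]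
    constructor
    · intro hx
      exact hx ⟨π, mem_zpowers π⟩
    · rintro hx ⟨g, k, rfl⟩
      show (π ^ k) x = x
      exact Equiv.Perm.zpow_apply_eq_self_of_apply_eq_self hx k
  rwa [e] at h

/-- Conjugation by an element of prime order on an invariant set. -/
theorem conj_fixed_mod {Γ : Type*} [Group Γ] {p : ℕ} [hp : Fact p.Prime] {f : Γ} (hf : f ^ p = 1) (A : Set Γ)
    [Finite A] (hA : ∀ x, x ∈ A ↔ f * x * f⁻¹ ∈ A) :
    Nat.card A ≡ Nat.card {x : Γ // x ∈ A ∧ f * x = x * f} [MOD p] := by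
  let c : Equiv.Perm Γ := (MulAut.conj f).toEquiv
  have hc : ∀ x, c x = f * x * f⁻¹ := fun x => rfl
  have hA' : ∀ x, (fun y => y ∈ A) (c x) ↔ (fun y => y ∈ A) x := fun x => (hA x).symm
  let π : Equiv.Perm A := Equiv.Perm.subtypePerm c hA'
  have hcp : c ^ p = 1 := by
    have hm : ∀ n : ℕ, ∀ x, (c ^ n) x = f ^ n * x * (f ^ n)⁻¹ := by
      intro n
      induction n with
      | zero => intro x; simp
      | succ n ih =>
        intro x
        rw [pow_succ', Equiv.Perm.mul_apply, ih, hc, pow_succ']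
        group
    ext x
    rw [hm, hf]
    simp
  have hπ : π ^ p = 1 := by
    ext x
    have h3 := Equiv.Perm.subtypePerm_pow c p hA'
    show ((π ^ p) x : Γ) = x
    have h4 : π ^ p = Equiv.Perm.subtypePerm (c ^ p) _ := h3
    rw [h4]
    simp [hcp]
  have h := card_fixed_mod_of_perm π hπ
  have e : Nat.card {x // π x = x} = Nat.card {x : Γ // x ∈ A ∧ f * x = x * f} := by
    refine Nat.card_congr ⟨fun x => ⟨x.1.1, x.1.2, ?_⟩, fun x => ⟨⟨x.1, x.2.1⟩, ?_⟩, fun x => rfl, fun x => rfl⟩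
    · have h2 : f * x.1.1 * f⁻¹ = x.1.1 := congrArg Subtype.val x.2
      calc f * x.1.1 = (f * x.1.1 * f⁻¹) * f := by group
        _ = x.1.1 * f := by rw [h2]
    · apply Subtype.ext
      show f * x.1 * f⁻¹ = x.1
      rw [x.2.2]
      group
  rwa [e] at h

variable {G : Type u} [Group G] [Finite G]

/-- The centralizer of a cyclic group. -/
theorem cen_zpowers (f : G) : centralizer ((zpowers f : Subgroup G) : Set G) = centralizer ({f} : Set G) := by
  ext x
  rw [mem_centralizer_iff, mem_centralizer_iff]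
  constructor
  · intro h y hy
    rw [Set.mem_singleton_iff] at hy
    subst hy
    exact h _ (mem_zpowers _)
  · intro h y hy
    obtain ⟨k, rfl⟩ := mem_zpowers_iff.1 hy
    have h1 : f * x = x * f := h f rfl
    have h2 : Commute f x := h1
    exact (h2.zpow_left k).eq

/-- The order of the centralizer of an element of prime order. -/
theorem card_cen_of_order {p : ℕ} [Fact p.Prime] (h : Ex G p) {f : G} (hf : orderOf f = p) :
    Nat.card (centralizer ({f} : Set G)) = cc G p := by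
  obtain ⟨Q, hQ⟩ := exists_sylow_of_card h (zpowers f) (by rw [Nat.card_zpowers, hf])
  rw [← cc_eq Q, hQ, cen_zpowers]

/-! ### The raw table -/

/-- What the table gives. -/
def Concl (a b c d e : ℕ × ℕ) : Prop :=
  (a = (2280, 1140) ∧ (d.2 = 380 ∨ d.2 = 190)) ∨
  (b = (1320, 660) ∧ (d.2 = 330 ∨ d.2 = 165)) ∨
  (b = (1320, 264) ∧ (d.2 = 15 ∨ d.2 = 30)) ∨
  (b = (1320, 132) ∧ (d.2 = 15 ∨ d.2 = 30)) ∨
  ((a.2 = 19 ∨ a.2 = 38 ∨ a.2 = 418) ∧ (b.2 = 11 ∨ b.2 = 22 ∨ b.2 = 418) ∧ (c.2 = 7 ∨ c.2 = 14) ∧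
    (d.2 = 15 ∨ d.2 = 30) ∧ e.2 = 30)

instance (a b c d e : ℕ × ℕ) : Decidable (Concl a b c d e) := by unfold Concl; infer_instance

/-- The implication checked on each line. -/
def VC (a b c d e : ℕ × ℕ) : Prop := Valid 175560 (Cfsg.Agent.S4274.mk a b c d e) → Concl a b c d e

instance (a b c d e : ℕ × ℕ) : Decidable (VC a b c d e) := by unfold VC; infer_instance

theorem tab_check : ∀ a ∈ cands 175560 19, ∀ b ∈ cands 175560 11, Pair 19 11 a b →
    ∀ c ∈ cands 175560 7, Pair 19 7 a c → Pair 11 7 b c →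
    ∀ d ∈ cands 175560 5, Pair 19 5 a d → Pair 11 5 b d → Pair 7 5 c d →
    ∀ e ∈ cands 175560 3, Pair 19 3 a e → Pair 11 3 b e → Pair 7 3 c e → Pair 5 3 d e →
    VC a b c d e := by
  decide +kernel

theorem tab_raw [IsSimpleGroup G] (hG : Nat.card G = 175560) :
    Concl (nn G 19, cc G 19) (nn G 11, cc G 11) (nn G 7, cc G 7) (nn G 5, cc G 5) (nn G 3, cc G 3) := by
  have h1 : Nat.card G ∣ 175560 := by rw [hG]
  have h19 : 19 ∣ Nat.card G := by rw [hG]; norm_num
  have hneP : ∀ p ∈ [19, 11, 7, 5, 3], Nat.card G ≠ p := by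
    intro p hp h0
    rw [hG] at h0
    simp only [List.mem_cons, List.not_mem_nil, or_false] at hp
    rcases hp with rfl | rfl | rfl | rfl | rfl <;> norm_num at h0
  have hmemE : ∀ p (hp : p ∈ [19, 11, 7, 5, 3]), ent G p ∈ cands (Nat.card G) p := fun p hp =>
    ent_mem (prime_of_mem hp).1 (prime_of_mem hp).2 h1 (hneP p hp)
  have hpairE : ∀ p q (_ : p ∈ [19, 11, 7, 5, 3]) (_ : q ∈ [19, 11, 7, 5, 3]),
      Pair p q (ent G p) (ent G q) := fun p q hp hq =>
    ent_pair (prime_of_mem hp).1 (prime_of_mem hq).1 (prime_of_mem hp).2 (prime_of_mem hq).2 h1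
  have hv := valid_ent h1 h19
  have hmem19 := hmemE 19 (by simp)
  have hmem11 := hmemE 11 (by simp)
  have hmem7 := hmemE 7 (by simp)
  have hmem5 := hmemE 5 (by simp)
  have hmem3 := hmemE 3 (by simp)
  rw [hG] at hv hmem19 hmem11 hmem7 hmem5 hmem3
  have hc := tab_check _ hmem19 _ hmem11 (hpairE _ _ (by simp) (by simp))
    _ hmem7 (hpairE _ _ (by simp) (by simp)) (hpairE _ _ (by simp) (by simp))
    _ hmem5 (hpairE _ _ (by simp) (by simp)) (hpairE _ _ (by simp) (by simp))
    (hpairE _ _ (by simp) (by simp))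
    _ hmem3 (hpairE _ _ (by simp) (by simp)) (hpairE _ _ (by simp) (by simp))
    (hpairE _ _ (by simp) (by simp)) (hpairE _ _ (by simp) (by simp))
    hv
  rwa [ent_of_dvd (p := 19) (by rw [hG]; norm_num), ent_of_dvd (p := 11) (by rw [hG]; norm_num),
    ent_of_dvd (p := 7) (by rw [hG]; norm_num), ent_of_dvd (p := 5) (by rw [hG]; norm_num),
    ent_of_dvd (p := 3) (by rw [hG]; norm_num)] at hc

/-! ### Killing the extra lines -/

/-- `Ex` for the relevant primes. -/
theorem ex_of (hG : Nat.card G = 175560) {p : ℕ} (hp : p ∈ [19, 11, 7, 5, 3]) : Ex G p := by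
  obtain ⟨h1, h2⟩ := prime_of_mem hp
  refine ex_of_dvd h1 h2 (by rw [hG]) ?_
  rw [hG]
  simp only [List.mem_cons, List.not_mem_nil, or_false] at hp
  rcases hp with rfl | rfl | rfl | rfl | rfl <;> norm_num

/-- An element of order five with `N/C` of order two centralizes every Sylow subgroup it normalizes. -/
theorem mem_cen_of_mem_norm {p : ℕ} [Fact p.Prime] {f : G} (hf : f ^ 5 = 1) (he : nn G p = cc G p * 2)
    (Q : Sylow p G) (hQ : f ∈ normalizer ((Q : Subgroup G) : Set G)) :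
    f ∈ centralizer ((Q : Subgroup G) : Set G) := by
  set N := normalizer ((Q : Subgroup G) : Set G) with hN
  set C := centralizer ((Q : Subgroup G) : Set G) with hC
  have hCN : C ≤ N := by
    intro x hx
    rw [hN, mem_normalizer_iff]
    intro y
    have h1 := mem_centralizer_iff.1 hx
    constructor
    · intro hy
      have e' : x * y * x⁻¹ = y := by rw [← h1 y hy]; group
      rw [e']; exact hy
    · intro hy
      have h3 : x⁻¹ ∈ C := C.inv_mem hx
      have h2 := mem_centralizer_iff.1 h3 _ hy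
      have e' : y = x⁻¹ * (x * y * x⁻¹) * x⁻¹⁻¹ := by group
      rw [e', ← h2]; simpa using hy
  have hidx : (C.subgroupOf N).index = 2 := by
    have h0 := Subgroup.card_mul_index (C.subgroupOf N)
    rw [Nat.card_congr (subgroupOfEquivOfLe hCN).toEquiv, hC, cc_eq Q, hN, nn_eq Q, he] at h0
    have hcc : 0 < cc G p := by
      rw [← cc_eq Q]
      exact Nat.card_pos
    exact Nat.eq_of_mul_eq_mul_left hcc h0
  have h2 := Subgroup.sq_mem_of_index_two hidx (⟨f, hQ⟩ : N)
  have h3 : f ^ 2 ∈ C := h2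
  have h4 : f = (f ^ 2) ^ 3 := by
    rw [← pow_mul]
    rw [show 2 * 3 = 5 + 1 by norm_num, pow_succ, hf, one_mul]
  rw [h4]
  exact pow_mem h3 3

/-- An element of order five with a unique Sylow subgroup in its centralizer: the number of Sylow subgroups is
one modulo five. -/
theorem sylow_count_mod {p : ℕ} [Fact p.Prime] (hpp : Nat.Prime 5) {f : G} (hf : orderOf f = 5)
    (he : nn G p = cc G p * 2) (Q₀ : Sylow p G) (hQ₀ : f ∈ centralizer ((Q₀ : Subgroup G) : Set G))
    (hu : ∀ d, d ∣ Nat.card (centralizer ({f} : Set G)) / 5 → d % p = 1 → d = 1) :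
    Nat.card (Sylow p G) % 5 = 1 := by
  classical
  haveI : Fact (Nat.Prime 5) := ⟨hpp⟩
  have hf5 : f ^ 5 = 1 := by rw [← hf, pow_orderOf_eq_one]
  set W := centralizer ({f} : Set G) with hW
  -- `f` is central in `W`
  have hfW : f ∈ W := by
    rw [hW, mem_centralizer_iff]
    intro h hh
    rw [Set.mem_singleton_iff] at hh
    rw [hh]
  have hcW : ∀ w : W, (⟨f, hfW⟩ : W) * w = w * ⟨f, hfW⟩ := by
    intro w
    apply Subtype.ext
    exact (mem_centralizer_iff.1 w.2 f rfl)
  -- the Sylow subgroup of `W`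
  have hsub : Subsingleton (Sylow p W) := by
    obtain ⟨R⟩ : Nonempty (Sylow p W) := inferInstance
    have h0 : Nat.card (Sylow p W) = (normalizer ((R : Subgroup W) : Set W)).index :=
      Sylow.card_eq_index_normalizer R
    have h1 := Subgroup.card_mul_index (normalizer ((R : Subgroup W) : Set W))
    have hfN : (⟨f, hfW⟩ : W) ∈ normalizer ((R : Subgroup W) : Set W) := by
      rw [mem_normalizer_iff]
      intro y
      have e : (⟨f, hfW⟩ : W) * y * (⟨f, hfW⟩ : W)⁻¹ = y := by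
        rw [hcW y]
        group
      rw [e]
    have h5 : 5 ∣ Nat.card (normalizer ((R : Subgroup W) : Set W)) := by
      have := Subgroup.orderOf_dvd_natCard _ hfN
      rwa [show orderOf (⟨f, hfW⟩ : W) = 5 by rw [Subgroup.orderOf_mk, hf]] at this
    obtain ⟨k, hk⟩ := h5
    have hd : Nat.card (Sylow p W) ∣ Nat.card W / 5 := by
      rw [h0, ← h1, hk, mul_assoc, Nat.mul_div_cancel_left _ (by norm_num)]
      exact dvd_mul_left _ _
    have hmod : Nat.card (Sylow p W) % p = 1 % p := card_sylow_modEq_one p W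
    have hp1 : 1 % p = 1 := Nat.mod_eq_of_lt (Fact.out : p.Prime).one_lt
    have hone := hu _ hd (hmod.trans hp1)
    exact (Nat.card_eq_one_iff_unique.1 hone).1
  -- fixed points
  have hpm : (MulAction.toPerm f : Equiv.Perm (Sylow p G)) ^ 5 = 1 := by
    have h : (MulAction.toPermHom G (Sylow p G)) (f ^ 5) = 1 := by rw [hf5, map_one]
    rw [map_pow] at h
    exact h
  have hcount := card_fixed_mod_of_perm _ hpm
  have key : ∀ Q : Sylow p G, (MulAction.toPerm f : Equiv.Perm (Sylow p G)) Q = Q → (Q : Subgroup G) ≤ W := by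
    intro Q hQ x hx
    have h1 : f • Q = Q := hQ
    rw [Sylow.smul_eq_iff_mem_normalizer] at h1
    have h2 := mem_cen_of_mem_norm hf5 he Q h1
    rw [hW, mem_centralizer_iff]
    intro y hy
    rw [Set.mem_singleton_iff] at hy
    rw [hy]
    exact (mem_centralizer_iff.1 h2 x hx).symm
  have hone : Nat.card {x : Sylow p G // (MulAction.toPerm f : Equiv.Perm (Sylow p G)) x = x} = 1 := by
    rw [Nat.card_eq_one_iff_unique]
    refine ⟨⟨?_⟩, ⟨⟨Q₀, ?_⟩⟩⟩
    · have key2 : ∀ Q : Sylow p G, (Q : Subgroup G) ≤ W → ∀ R : Sylow p W,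
          (Q : Subgroup G) = (R : Subgroup W).map W.subtype := by
        intro Q hQW R
        have hp1 : IsPGroup p ((Q : Subgroup G).subgroupOf W) :=
          Q.isPGroup'.comap_of_injective W.subtype W.subtype_injective
        obtain ⟨R₁, hR₁⟩ := hp1.exists_le_sylow
        have hRR : R₁ = R := Subsingleton.elim _ _
        subst hRR
        have hle : (Q : Subgroup G) ≤ (R₁ : Subgroup W).map W.subtype := by
          intro x hx
          exact ⟨⟨x, hQW hx⟩, hR₁ hx, rfl⟩
        exact (Q.is_maximal' (R₁.isPGroup'.map W.subtype) hle).symm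
      rintro ⟨Q₁, h1⟩ ⟨Q₂, h2⟩
      apply Subtype.ext
      obtain ⟨R⟩ : Nonempty (Sylow p W) := inferInstance
      apply Sylow.ext
      rw [key2 Q₁ (key Q₁ h1) R, key2 Q₂ (key Q₂ h2) R]
    · show f • Q₀ = Q₀
      rw [Sylow.smul_eq_iff_mem_normalizer]
      show f ∈ normalizer (((Q₀ : Subgroup G)) : Set G)
      rw [mem_normalizer_iff]
      intro y
      have h1 := mem_centralizer_iff.1 hQ₀
      constructor
      · intro hy
        have e' : f * y * f⁻¹ = y := by rw [← h1 y hy]; group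
        rw [e']; exact hy
      · intro hy
        have h3 : f⁻¹ ∈ centralizer ((Q₀ : Subgroup G) : Set G) := Subgroup.inv_mem _ hQ₀
        have h2 := mem_centralizer_iff.1 h3 _ hy
        have e' : y = f⁻¹ * (f * y * f⁻¹) * f⁻¹⁻¹ := by group
        rw [e', ← h2]; simpa using hy
  rw [hone] at hcount
  exact hcount

/-- Divisor checks. -/
theorem div_check {m p : ℕ} (hm : m ≠ 0) (h : ∀ d ∈ Nat.divisors m, d % p = 1 → d = 1) :
    ∀ d, d ∣ m → d % p = 1 → d = 1 :=
  fun d hd hp => h d (Nat.mem_divisors.2 ⟨hd, hm⟩) hp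

/-- The line with `n₁₉ = 77`. -/
theorem kill_A (hG : Nat.card G = 175560) (h1 : nn G 19 = 2280) (h2 : cc G 19 = 1140)
    (h3 : cc G 5 = 380 ∨ cc G 5 = 190) : False := by
  haveI h19 : Fact (Nat.Prime 19) := ⟨by norm_num⟩
  haveI h5 : Fact (Nat.Prime 5) := ⟨by norm_num⟩
  have hex5 : Ex G 5 := ex_of hG (by simp)
  obtain ⟨Q₀⟩ : Nonempty (Sylow 19 G) := inferInstance
  have hd : 5 ∣ Nat.card (centralizer ((Q₀ : Subgroup G) : Set G)) := by
    rw [cc_eq Q₀, h2]; norm_num
  obtain ⟨f, hf⟩ := exists_prime_orderOf_dvd_card' 5 hd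
  have hf' : orderOf (f : G) = 5 := by rw [Subgroup.orderOf_coe, hf]
  have hc := card_cen_of_order hex5 hf'
  have hn := sylow_count_mod (by norm_num) hf' (p := 19) (by rw [h1, h2]) Q₀ f.2 (by
    rw [hc]
    rcases h3 with h3 | h3 <;> rw [h3]
    · exact div_check (by norm_num) (by decide +kernel)
    · exact div_check (by norm_num) (by decide +kernel))
  have h4 : Nat.card (Sylow 19 G) * nn G 19 = Nat.card G := card_eq_mul_nn
  rw [h1, hG] at h4
  omega

/-- The line with `n₁₁ = 133` and `5 ∣ c₁₁`. -/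
theorem kill_B (hG : Nat.card G = 175560) (h1 : nn G 11 = 1320) (h2 : cc G 11 = 660)
    (h3 : cc G 5 = 330 ∨ cc G 5 = 165) : False := by
  haveI h19 : Fact (Nat.Prime 11) := ⟨by norm_num⟩
  haveI h5 : Fact (Nat.Prime 5) := ⟨by norm_num⟩
  have hex5 : Ex G 5 := ex_of hG (by simp)
  obtain ⟨Q₀⟩ : Nonempty (Sylow 11 G) := inferInstance
  have hd : 5 ∣ Nat.card (centralizer ((Q₀ : Subgroup G) : Set G)) := by
    rw [cc_eq Q₀, h2]; norm_num
  obtain ⟨f, hf⟩ := exists_prime_orderOf_dvd_card' 5 hd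
  have hf' : orderOf (f : G) = 5 := by rw [Subgroup.orderOf_coe, hf]
  have hc := card_cen_of_order hex5 hf'
  have hn := sylow_count_mod (by norm_num) hf' (p := 11) (by rw [h1, h2]) Q₀ f.2 (by
    rw [hc]
    rcases h3 with h3 | h3 <;> rw [h3]
    · exact div_check (by norm_num) (by decide +kernel)
    · exact div_check (by norm_num) (by decide +kernel))
  have h4 : Nat.card (Sylow 11 G) * nn G 11 = Nat.card G := card_eq_mul_nn
  rw [h1, hG] at h4
  omega

/-- The fixed points of conjugation on a subgroup. -/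
theorem card_inf_cen_mod {Γ : Type*} [Group Γ] {p : ℕ} [hp : Fact p.Prime] {f : Γ} (hf : f ^ p = 1)
    (A : Subgroup Γ) [Finite A] (hA : ∀ x, x ∈ A ↔ f * x * f⁻¹ ∈ A) :
    Nat.card A ≡ Nat.card ↥(A ⊓ centralizer ({f} : Set Γ)) [MOD p] := by
  have h := conj_fixed_mod hf (A : Set Γ) hA
  have e : Nat.card {x : Γ // x ∈ (A : Set Γ) ∧ f * x = x * f} = Nat.card ↥(A ⊓ centralizer ({f} : Set Γ)) := by
    refine Nat.card_congr (Equiv.subtypeEquivRight (fun x => ?_))
    rw [mem_inf, mem_centralizer_singleton_iff]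
    constructor
    · rintro ⟨h1, h2⟩
      exact ⟨h1, h2.symm⟩
    · rintro ⟨h1, h2⟩
      exact ⟨h1, h2.symm⟩
  rwa [e] at h

/-- An element normalizing a subgroup normalizes its centralizer. -/
theorem mem_cen_iff_of_norm {Q : Subgroup G} {f : G} (hf : f ∈ normalizer (Q : Set G)) (x : G) :
    x ∈ centralizer (Q : Set G) ↔ f * x * f⁻¹ ∈ centralizer (Q : Set G) := by
  rw [mem_normalizer_iff] at hf
  simp only [Subgroup.mem_centralizer_iff]
  constructor
  · intro hx s hs
    have h1 := (hf (f⁻¹ * s * f)).mpr (by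
      have e : f * (f⁻¹ * s * f) * f⁻¹ = s := by group
      rw [e]; exact hs)
    have h2 := hx _ h1
    calc s * (f * x * f⁻¹) = f * ((f⁻¹ * s * f) * x) * f⁻¹ := by group
      _ = f * (x * (f⁻¹ * s * f)) * f⁻¹ := by rw [h2]
      _ = _ := by group
  · intro hx s hs
    have h1 := (hf s).mp hs
    have h2 := hx _ h1
    have h3 : f * (s * x) * f⁻¹ = f * (x * s) * f⁻¹ := by
      calc f * (s * x) * f⁻¹ = (f * s * f⁻¹) * (f * x * f⁻¹) := by group
        _ = (f * x * f⁻¹) * (f * s * f⁻¹) := h2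
        _ = _ := by group
    simpa using h3

/-- Conjugation by an element normalizing a subgroup. -/
def conjAut {Γ : Type*} [Group Γ] (R : Subgroup Γ) (g : Γ) (n : ∀ y, y ∈ R ↔ g * y * g⁻¹ ∈ R) : MulAut R where
  toFun y := ⟨g * y * g⁻¹, (n y).1 y.2⟩
  invFun y := ⟨g⁻¹ * y * g, (n _).2 (by
    have e : g * (g⁻¹ * (y : Γ) * g) * g⁻¹ = y := by group
    rw [e]
    exact y.2)⟩
  left_inv y := by
    apply Subtype.ext
    show g⁻¹ * (g * y * g⁻¹) * g = y
    group
  right_inv y := by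
    apply Subtype.ext
    show g * (g⁻¹ * y * g) * g⁻¹ = y
    group
  map_mul' a b := by
    apply Subtype.ext
    show g * (a * b) * g⁻¹ = g * a * g⁻¹ * (g * b * g⁻¹)
    group

/-- The lines with `n₁₁ = 133` and `5 ∤ c₁₁`. -/
theorem kill_CD (hG : Nat.card G = 175560) (h1 : nn G 11 = 1320) (h2 : cc G 11 = 264 ∨ cc G 11 = 132)
    (h3 : cc G 5 = 15 ∨ cc G 5 = 30) : False := by
  classical
  haveI h19 : Fact (Nat.Prime 11) := ⟨by norm_num⟩
  haveI h5 : Fact (Nat.Prime 5) := ⟨by norm_num⟩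
  haveI h33 : Fact (Nat.Prime 3) := ⟨by norm_num⟩
  have hex5 : Ex G 5 := ex_of hG (by simp)
  obtain ⟨Q₀⟩ : Nonempty (Sylow 11 G) := inferInstance
  have hd : 5 ∣ Nat.card (normalizer ((Q₀ : Subgroup G) : Set G)) := by
    rw [nn_eq Q₀, h1]; norm_num
  obtain ⟨f, hf⟩ := exists_prime_orderOf_dvd_card' 5 hd
  have hf' : orderOf (f : G) = 5 := by rw [Subgroup.orderOf_coe, hf]
  have hf5 : (f : G) ^ 5 = 1 := by rw [← hf', pow_orderOf_eq_one]
  have hc := card_cen_of_order hex5 hf'
  set C := centralizer ((Q₀ : Subgroup G) : Set G) with hC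
  have hnC : ∀ x, x ∈ C ↔ (f : G) * x * (f : G)⁻¹ ∈ C := mem_cen_iff_of_norm f.2
  have hmod := card_inf_cen_mod hf5 C hnC
  rw [hC, cc_eq Q₀, ← hC] at hmod
  set D := C ⊓ centralizer ({(f : G)} : Set G) with hD
  have hDd : Nat.card D ∣ 30 := by
    have h4 : Nat.card D ∣ cc G 5 := by
      rw [← hc]
      exact Subgroup.card_dvd_of_le inf_le_right
    rcases h3 with h3 | h3
    · rw [h3] at h4
      exact h4.trans (by norm_num)
    · rwa [h3] at h4
  have hDl : Nat.card D ∈ Nat.divisors 30 := Nat.mem_divisors.2 ⟨hDd, by norm_num⟩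
  have hall : ∀ d ∈ Nat.divisors 30, d % 5 ≠ 4 ∧ (d % 5 = 2 → ¬ 3 ∣ d) := by decide +kernel
  obtain ⟨h6, h7⟩ := hall _ hDl
  rcases h2 with h2 | h2
  · rw [h2] at hmod
    unfold Nat.ModEq at hmod
    omega
  · rw [h2] at hmod
    unfold Nat.ModEq at hmod
    refine h7 (by omega) ?_
    -- a Sylow `3`-subgroup of `C` normalized by `f`
    have hcC : Nat.card C = 3 * 44 := by
      rw [hC, cc_eq Q₀, h2]
    let α : MulAut C := conjAut C f hnC
    have hα : ∀ (n : ℕ) (y : C), ((α ^ n) y : G) = (f : G) ^ n * y * ((f : G) ^ n)⁻¹ := by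
      intro n
      induction n with
      | zero => intro y; simp
      | succ n ih =>
        intro y
        rw [pow_succ', MulAut.mul_apply]
        show (f : G) * (((α ^ n) y : C) : G) * (f : G)⁻¹ = _
        rw [ih, pow_succ']
        group
    have hα5 : α ^ 5 = 1 := by
      ext y
      rw [hα, hf5]
      simp
    have hpm : (MulAction.toPerm α : Equiv.Perm (Sylow 3 C)) ^ 5 = 1 := by
      have h : (MulAction.toPermHom (MulAut C) (Sylow 3 C)) (α ^ 5) = 1 := by rw [hα5, map_one]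
      rw [map_pow] at h
      exact h
    have hcount := card_fixed_mod_of_perm _ hpm
    obtain ⟨R₀⟩ : Nonempty (Sylow 3 C) := inferInstance
    have hcR₀ : Nat.card R₀ = 3 := Cfsg.Agent.Lib.J1Ord.card_sylow_prime R₀ hcC (by norm_num)
    have hidx : (R₀ : Subgroup C).index = 44 := by
      have h8 := Subgroup.card_mul_index (R₀ : Subgroup C)
      rw [hcR₀, hcC] at h8
      exact Nat.eq_of_mul_eq_mul_left (by norm_num) h8
    have hnd : Nat.card (Sylow 3 C) ∣ 44 := by
      have := Sylow.card_dvd_index R₀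
      rwa [hidx] at this
    have hnm : Nat.card (Sylow 3 C) ∈ Nat.divisors 44 := Nat.mem_divisors.2 ⟨hnd, by norm_num⟩
    have hall2 : ∀ d ∈ Nat.divisors 44, d % 5 ≠ 0 := by decide +kernel
    have hne := hall2 _ hnm
    have hfix : Nat.card {x : Sylow 3 C // (MulAction.toPerm α : Equiv.Perm (Sylow 3 C)) x = x} ≠ 0 := by
      intro h0
      rw [h0] at hcount
      unfold Nat.ModEq at hcount
      omega
    obtain ⟨⟨R, hR⟩⟩ : Nonempty {x : Sylow 3 C // (MulAction.toPerm α : Equiv.Perm (Sylow 3 C)) x = x} := by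
      by_contra hcon
      rw [not_nonempty_iff] at hcon
      exact hfix Nat.card_of_isEmpty
    have hR' : α • R = R := hR
    have hRi : α⁻¹ • R = R := by
      conv_lhs => rw [← hR']
      rw [smul_smul, inv_mul_cancel, one_smul]
    set R' : Subgroup G := (R : Subgroup C).map C.subtype with hR'def
    have hcR : Nat.card R = 3 := Cfsg.Agent.Lib.J1Ord.card_sylow_prime R hcC (by norm_num)
    have hcR' : Nat.card R' = 3 := by
      rw [hR'def, Subgroup.card_map_of_injective C.subtype_injective, hcR]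
    have hnR : ∀ x, x ∈ R' ↔ (f : G) * x * (f : G)⁻¹ ∈ R' := by
      intro x
      constructor
      · rintro ⟨y, hy, rfl⟩
        have h8 := Subgroup.smul_mem_pointwise_smul y α (R : Subgroup C) hy
        rw [← Sylow.pointwise_smul_def, hR'] at h8
        exact ⟨α y, h8, rfl⟩
      · rintro ⟨y, hy, hyx⟩
        have hy' : ((y : C) : G) = (f : G) * x * (f : G)⁻¹ := hyx
        have h8 := Subgroup.smul_mem_pointwise_smul y α⁻¹ (R : Subgroup C) hy
        rw [← Sylow.pointwise_smul_def, hRi] at h8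
        refine ⟨α⁻¹ • y, h8, ?_⟩
        show (f : G)⁻¹ * ((y : C) : G) * (f : G) = x
        rw [hy']
        group
    have hmod3 := card_inf_cen_mod hf5 R' hnR
    rw [hcR'] at hmod3
    have hF : Nat.card ↥(R' ⊓ centralizer ({(f : G)} : Set G)) = 3 := by
      have h9 : Nat.card ↥(R' ⊓ centralizer ({(f : G)} : Set G)) ∣ 3 := by
        rw [← hcR']
        exact Subgroup.card_dvd_of_le inf_le_left
      rcases (Nat.dvd_prime (by norm_num)).1 h9 with h10 | h10
      · rw [h10] at hmod3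
        unfold Nat.ModEq at hmod3
        omega
      · exact h10
    rw [← hF]
    apply Subgroup.card_dvd_of_le
    intro x hx
    refine ⟨?_, hx.2⟩
    obtain ⟨y, -, rfl⟩ := hx.1
    exact y.2

/-- **The table.** -/
theorem tab [IsSimpleGroup G] (hG : Nat.card G = 175560) :
    (cc G 19 = 19 ∨ cc G 19 = 38 ∨ cc G 19 = 418) ∧ (cc G 11 = 11 ∨ cc G 11 = 22 ∨ cc G 11 = 418) ∧
      (cc G 7 = 7 ∨ cc G 7 = 14) ∧ (cc G 5 = 15 ∨ cc G 5 = 30) ∧ cc G 3 = 30 := by
  rcases tab_raw hG with ⟨h1, h2⟩ | ⟨h1, h2⟩ | ⟨h1, h2⟩ | ⟨h1, h2⟩ | h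
  · exfalso
    rw [Prod.mk.injEq] at h1
    exact kill_A hG h1.1 h1.2 h2
  · exfalso
    rw [Prod.mk.injEq] at h1
    exact kill_B hG h1.1 h1.2 h2
  · exfalso
    rw [Prod.mk.injEq] at h1
    exact kill_CD hG h1.1 (Or.inl h1.2) h2
  · exfalso
    rw [Prod.mk.injEq] at h1
    exact kill_CD hG h1.1 (Or.inr h1.2) h2
  · exact h

end Cfsg.Agent.Lib.J1Ord.O175
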