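import Mathlib
import Cfsg.Agent.Lib.J1Ord.O175Tab
import Cfsg.Agent.Lib.J1Ord.UniqGen
import Cfsg.Agent.Lib.PGroup.CyclicMax
import Cfsg.Agent.Lib.Transfer.IndexTwo
import Cfsg.Agent.S0219
import Cfsg.Agent.S0201
import Cfsg.Agent.S0514
import Cfsg.Agent.S0848

/-!
# The Sylow `2`-subgroups of a simple group of order 175560 are elementary abelian
-/

set_option autoImplicit false

namespace Cfsg.Agent.Lib.J1Ord.O175

open Subgroup Cfsg.Agent.S4274

universe u

variable {G : Type u} [Group G] [Finite G]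

/-- The order of a Sylow `2`-subgroup. -/
theorem card_sylow_two (hG : Nat.card G = 175560) (P : Sylow 2 G) : Nat.card P = 8 := by
  obtain ⟨k, hk⟩ := IsPGroup.iff_card.1 P.isPGroup'
  have hmul := Subgroup.card_mul_index (P : Subgroup G)
  have hnd : ¬ 2 ∣ (P : Subgroup G).index := P.not_dvd_index
  have hk' : Nat.card (P : Subgroup G) = 2 ^ k := hk
  rw [hG, hk'] at hmul
  have hk3 : k = 3 := by
    rcases lt_trichotomy k 3 with h | h | h
    · exfalso
      apply hnd
      interval_cases k <;> omega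
    · exact h
    · exfalso
      have h1 : 2 ^ 4 ∣ 2 ^ k := pow_dvd_pow 2 (by omega)
      have h2 : 2 ^ 4 ∣ 175560 := h1.trans (Dvd.intro _ hmul)
      norm_num at h2
  rw [hk', hk3]
  norm_num

/-- The only possible primes. -/
theorem prime_mem {p : ℕ} (hp : p.Prime) (hd : p ∣ 175560) (h2 : p ≠ 2) : p ∈ [19, 11, 7, 5, 3] := by
  have e : (175560 : ℕ) = 2 ^ 3 * 3 * 5 * 7 * 11 * 19 := by norm_num
  rw [e] at hd
  have key : ∀ q : ℕ, q.Prime → p ∣ q → p = q := fun q hq h => (Nat.prime_dvd_prime_iff_eq hp hq).1 h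
  rcases (Nat.Prime.dvd_mul hp).1 hd with h | h
  · rcases (Nat.Prime.dvd_mul hp).1 h with h | h
    · rcases (Nat.Prime.dvd_mul hp).1 h with h | h
      · rcases (Nat.Prime.dvd_mul hp).1 h with h | h
        · rcases (Nat.Prime.dvd_mul hp).1 h with h | h
          · exact absurd (key 2 Nat.prime_two (hp.dvd_of_dvd_pow h)) h2
          · rw [key 3 (by norm_num) h]; simp
        · rw [key 5 (by norm_num) h]; simp
      · rw [key 7 (by norm_num) h]; simp
    · rw [key 11 (by norm_num) h]; simp
  · rw [key 19 (by norm_num) h]; simp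

section Simple

variable [IsSimpleGroup G]

/-- No subgroup of index two. -/
theorem no_index_two (hG : Nat.card G = 175560) (N : Subgroup G) (hi : N.index = 2) : False := by
  haveI := Subgroup.normal_of_index_eq_two hi
  have h := Subgroup.card_mul_index N
  rcases (inferInstance : N.Normal).eq_bot_or_eq_top with h0 | h0
  · rw [h0, Subgroup.index_bot] at hi
    omega
  · rw [h0, Subgroup.index_top] at hi
    omega

/-- The centre is trivial. -/
theorem center_bot (hG : Nat.card G = 175560) : center G = ⊥ := by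
  rcases (inferInstance : (center G).Normal).eq_bot_or_eq_top with h | h
  · exact h
  · exfalso
    haveI h19 : Fact (Nat.Prime 19) := ⟨by norm_num⟩
    obtain ⟨Q⟩ : Nonempty (Sylow 19 G) := inferInstance
    have hcQ := sylow_card (ex_of hG (p := 19) (by simp)) Q
    have hn : (Q : Subgroup G).Normal := by
      refine ⟨fun n hn g => ?_⟩
      have h1 : g ∈ center G := by rw [h]; trivial
      have h2 := mem_center_iff.1 h1 n
      rw [← h2]
      simpa using hn
    rcases hn.eq_bot_or_eq_top with h3 | h3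
    · rw [h3, Subgroup.card_bot] at hcQ
      omega
    · rw [h3, Subgroup.card_top, hG] at hcQ
      omega

/-- The group is perfect. -/
theorem comm_top (hG : Nat.card G = 175560) : commutator G = ⊤ := by
  rcases (inferInstance : (commutator G).Normal).eq_bot_or_eq_top with h | h
  · exfalso
    have h1 := (commutator_eq_bot_iff_center_eq_top G).1 h
    rw [center_bot hG] at h1
    have h2 : (1 : G) = 1 := rfl
    have h3 : Nat.card (⊥ : Subgroup G) = Nat.card (⊤ : Subgroup G) := by rw [h1]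
    rw [Subgroup.card_bot, Subgroup.card_top, hG] at h3
    omega
  · exact h

end Simple

theorem four_eq (x : G) : x ^ 4 = x * x * (x * x) := by
  simp only [pow_succ, pow_zero, one_mul, mul_assoc]

/-- A criterion for order eight. -/
theorem order_eight_of {v : G} (h1 : v * v * (v * v) ≠ 1) (h2 : v * v * (v * v) * (v * v * (v * v)) = 1) :
    orderOf v = 8 := by
  have e1 : v ^ 2 ^ 2 = v * v * (v * v) := by
    rw [show 2 ^ 2 = 4 by norm_num, four_eq]
  have e2 : v ^ 2 ^ (2 + 1) = v * v * (v * v) * (v * v * (v * v)) := by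
    rw [show 2 ^ (2 + 1) = 4 + 4 by norm_num, pow_add, four_eq]
  have : orderOf v = 2 ^ (2 + 1) := by
    apply orderOf_eq_prime_pow
    · rw [e1]
      exact h1
    · rw [e2]
      exact h2
  rw [this]
  norm_num

/-- Elements of a cyclic group of order four. -/
theorem mem_zpowers_four {ρ a : G} (h4 : ρ ^ 4 = 1) (ha : a ∈ zpowers ρ) :
    a = 1 ∨ a = ρ ∨ a = ρ * ρ ∨ a = ρ⁻¹ := by
  obtain ⟨k, rfl⟩ := mem_zpowers_iff.1 ha
  have hρ : ρ⁻¹ = ρ ^ 3 := by
    rw [inv_eq_iff_mul_eq_one, ← pow_succ', h4]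
  have h1 : ρ ^ k = ρ ^ (k % 4) := by
    conv_lhs => rw [← Int.emod_add_mul_ediv k 4]
    rw [zpow_add, zpow_mul]
    have : ρ ^ (4 : ℤ) = 1 := by exact_mod_cast h4
    rw [this, one_zpow, mul_one]
  have h2 : 0 ≤ k % 4 := Int.emod_nonneg _ (by norm_num)
  have h3 : k % 4 < 4 := Int.emod_lt_of_pos _ (by norm_num)
  rw [h1]
  generalize k % 4 = m at h2 h3
  interval_cases m
  · left; simp
  · right; left; simp
  · right; right; left
    show ρ ^ (2 : ℤ) = ρ * ρ
    rw [zpow_two]
  · right; right; right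
    rw [hρ]
    show ρ ^ (3 : ℤ) = ρ ^ 3
    exact_mod_cast rfl

section Split

variable [IsSimpleGroup G]

/-- No element of order eight. -/
theorem no_order_eight (hG : Nat.card G = 175560) (P : Sylow 2 G) {x : G} (hx : x ∈ P) : orderOf x ≠ 8 := by
  intro h8
  have hcP := card_sylow_two hG P
  have hle : zpowers x ≤ (P : Subgroup G) := by
    rw [zpowers_le]
    exact hx
  have hP : zpowers x = (P : Subgroup G) := by
    apply Subgroup.eq_of_le_of_card_ge hle
    rw [Nat.card_zpowers, h8, hcP]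
  have hcyc : IsCyclic (P : Subgroup G) := by
    rw [← hP]
    infer_instance
  obtain ⟨H, hH⟩ := Cfsg.Agent.S0219.result (by rw [hG]; decide) P hcyc
  exact no_index_two hG H hH

/-- An abelian Sylow subgroup with an element of order four is impossible. -/
theorem not_abelian_four (hG : Nat.card G = 175560) (P : Sylow 2 G) {ρ v : G} (hρ : ρ ∈ P) (hv : v ∈ P)
    (hρ4 : orderOf ρ = 4) (hvn : v ∉ zpowers ρ) (hform : ∀ a ∈ P, a ∈ zpowers ρ ∨ a * v ∈ zpowers ρ)
    (hsq : v ^ 2 ∈ zpowers ρ) (hcomm : v * ρ = ρ * v) : False := by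
  classical
  have hcP := card_sylow_two hG P
  have hρ44 : ρ ^ 4 = 1 := by rw [← hρ4, pow_orderOf_eq_one]
  have hρρ : ρ * ρ ≠ 1 := by
    intro h
    have h1 : orderOf ρ ∣ 2 := orderOf_dvd_of_pow_eq_one (by rw [pow_two]; exact h)
    rw [hρ4] at h1
    omega
  have hvc : Commute v ρ := hcomm
  have hcomρ : ∀ a ∈ P, a * ρ = ρ * a := by
    intro a ha
    rcases hform a ha with h | h
    · obtain ⟨k, rfl⟩ := mem_zpowers_iff.1 h
      exact ((Commute.refl ρ).zpow_left k).eq
    · obtain ⟨k, hk⟩ := mem_zpowers_iff.1 h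
      have h1 : a = ρ ^ k * v⁻¹ := by
        rw [hk]
        group
      rw [h1]
      exact ((((Commute.refl ρ).zpow_left k).mul_left hvc.inv_left)).eq
  have hcomv : ∀ a ∈ P, a * v = v * a := by
    intro a ha
    rcases hform a ha with h | h
    · obtain ⟨k, rfl⟩ := mem_zpowers_iff.1 h
      exact ((hvc.symm.zpow_left k)).eq
    · obtain ⟨k, hk⟩ := mem_zpowers_iff.1 h
      have h1 : a = ρ ^ k * v⁻¹ := by
        rw [hk]
        group
      rw [h1]
      exact ((hvc.symm.zpow_left k).mul_left (Commute.refl v).inv_left).eq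
  have hcomm' : ∀ a ∈ P, ∀ b ∈ P, a * b = b * a := by
    intro a ha b hb
    rcases hform b hb with h | h
    · obtain ⟨k, rfl⟩ := mem_zpowers_iff.1 h
      have hc : Commute a ρ := hcomρ a ha
      exact (hc.zpow_right k).eq
    · obtain ⟨k, hk⟩ := mem_zpowers_iff.1 h
      have h1 : b = ρ ^ k * v⁻¹ := by
        rw [hk]
        group
      rw [h1]
      have hc : Commute a ρ := hcomρ a ha
      have hc2 : Commute a v := hcomv a ha
      exact ((hc.zpow_right k).mul_right hc2.inv_right).eq
  -- the elements of order at most two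
  let M : Subgroup G :=
    { carrier := {y | y ∈ (P : Subgroup G) ∧ y * y = 1}
      one_mem' := ⟨one_mem _, by simp⟩
      mul_mem' := by
        rintro a b ⟨ha, ha2⟩ ⟨hb, hb2⟩
        refine ⟨mul_mem ha hb, ?_⟩
        calc a * b * (a * b) = a * (b * a) * b := by group
          _ = a * (a * b) * b := by rw [hcomm' b hb a ha]
          _ = (a * a) * (b * b) := by group
          _ = 1 := by rw [ha2, hb2, one_mul]
      inv_mem' := by
        rintro a ⟨ha, ha2⟩
        refine ⟨inv_mem ha, ?_⟩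
        rw [← mul_inv_rev, ha2, inv_one] }
  have hM : ∀ y, y ∈ M ↔ y ∈ (P : Subgroup G) ∧ y * y = 1 := fun y => Iff.rfl
  have hMP : M ≤ (P : Subgroup G) := fun y hy => hy.1
  have hρM : ρ ∉ M := fun h => hρρ h.2
  -- the third element
  have hρ4' : ρ * ρ * (ρ * ρ) = 1 := by rw [← four_eq]; exact hρ44
  have ht2 : (ρ * ρ) ∈ M := ⟨mul_mem hρ hρ, hρ4'⟩
  have hord2 : orderOf (ρ * ρ) = 2 := by
    apply orderOf_eq_prime
    · rw [pow_two]; exact hρ4'
    · exact hρρ
  obtain ⟨u, huM, huA⟩ : ∃ u ∈ M, u ∉ zpowers ρ := by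
    have hvv := mem_zpowers_four hρ44 hsq
    rw [pow_two] at hvv
    rcases hvv with h | h | h | h
    · exact ⟨v, ⟨hv, h⟩, hvn⟩
    · exfalso
      have h8 : orderOf v = 8 := by
        apply order_eight_of
        · rw [h]; exact hρρ
        · rw [h]; exact hρ4'
      exact no_order_eight hG P hv h8
    · refine ⟨v * ρ⁻¹, ⟨mul_mem hv (inv_mem hρ), ?_⟩, ?_⟩
      · have hc2 : Commute v ρ⁻¹ := hvc.inv_right
        calc v * ρ⁻¹ * (v * ρ⁻¹) = v * (ρ⁻¹ * v) * ρ⁻¹ := by group
          _ = v * (v * ρ⁻¹) * ρ⁻¹ := by rw [hc2.eq]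
          _ = (v * v) * (ρ⁻¹ * ρ⁻¹) := by group
          _ = 1 := by rw [h]; group
      · intro h1
        apply hvn
        have e : v = v * ρ⁻¹ * ρ := by group
        rw [e]
        exact mul_mem h1 (mem_zpowers ρ)
    · exfalso
      have h2 : ρ⁻¹ * ρ⁻¹ = (ρ * ρ)⁻¹ := by group
      have h8 : orderOf v = 8 := by
        apply order_eight_of
        · rw [h, h2]
          intro h1
          exact hρρ (inv_eq_one.1 h1)
        · rw [h, h2, ← mul_inv_rev, hρ4', inv_one]
      exact no_order_eight hG P hv h8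
  have hcM : Nat.card M = 4 := by
    have hd : Nat.card M ∣ 8 := by
      rw [← hcP]
      exact Subgroup.card_dvd_of_le hMP
    have h2 : 2 ∣ Nat.card M := by
      have := Subgroup.orderOf_dvd_natCard M ht2
      rwa [hord2] at this
    have hmem : Nat.card M ∈ Nat.divisors 8 := Nat.mem_divisors.2 ⟨hd, by norm_num⟩
    have hall : ∀ d ∈ Nat.divisors 8, 2 ∣ d → d = 2 ∨ d = 4 ∨ d = 8 := by decide
    rcases hall _ hmem h2 with h | h | h
    · exfalso
      have hle : zpowers (ρ * ρ) ≤ M := by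
        rw [zpowers_le]
        exact ht2
      have he : zpowers (ρ * ρ) = M := by
        apply Subgroup.eq_of_le_of_card_ge hle
        rw [Nat.card_zpowers, hord2, h]
      have h3 : u ∈ zpowers (ρ * ρ) := by
        rw [he]
        exact huM
      apply huA
      have h4 : zpowers (ρ * ρ) ≤ zpowers ρ := by
        rw [zpowers_le]
        exact mul_mem (mem_zpowers ρ) (mem_zpowers ρ)
      exact h4 h3
    · exact h
    · exfalso
      have he : M = (P : Subgroup G) := by
        apply Subgroup.eq_of_le_of_card_ge hMP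
        rw [hcP, h]
      apply hρM
      rw [he]
      exact hρ
  have hrel : M.relIndex (P : Subgroup G) = 2 := by
    have h0 := Subgroup.card_mul_index (M.subgroupOf (P : Subgroup G))
    rw [Nat.card_congr (subgroupOfEquivOfLe hMP).toEquiv, hcM, hcP] at h0
    show (M.subgroupOf (P : Subgroup G)).index = 2
    omega
  have hodd : Odd (P : Subgroup G).index :=
    Nat.odd_iff.2 (Nat.mod_two_ne_zero.1 (fun h => P.not_dvd_index (Nat.dvd_of_mod_eq_zero h)))
  obtain ⟨N, -, hNi, -⟩ := Cfsg.Agent.Lib.Transfer.IndexTwo.exists_normal_index_two_of_relIndex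
    (P : Subgroup G) hodd M hrel ρ 2 (by norm_num; exact hρ44)
    (by
      intro g _ hgM
      apply hρρ
      have h1 := hgM.2
      have e : g⁻¹ * ρ * g * (g⁻¹ * ρ * g) = g⁻¹ * (ρ * ρ) * g := by group
      rw [e] at h1
      have e2 : ρ * ρ = g * (g⁻¹ * (ρ * ρ) * g) * g⁻¹ := by group
      rw [e2, h1]
      group)
    (by
      intro k hk hkd g hg
      refine ⟨hg, ?_⟩
      have hk4 : k ≤ 4 := Nat.le_of_dvd (by norm_num) hkd
      have hsq' : ρ ^ k * ρ ^ k = 1 := by
        interval_cases k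
        · rw [pow_two]
          exact hρ4'
        · norm_num at hkd
        · rw [hρ44, one_mul]
      have e : g⁻¹ * ρ ^ k * g * (g⁻¹ * ρ ^ k * g) = g⁻¹ * (ρ ^ k * ρ ^ k) * g := by group
      rw [e, hsq']
      group)
  exact no_index_two hG N hNi

/-- A quaternion Sylow subgroup is impossible. -/
theorem not_quaternion (hG : Nat.card G = 175560) (P : Sylow 2 G) {ρ v : G} (hρ : ρ ∈ P) (hv : v ∈ P)
    (hρ4 : orderOf ρ = 4) (hvv : v * v = ρ * ρ) (hvρ : v * ρ * v⁻¹ = ρ⁻¹) (hvn : v ∉ zpowers ρ) : False := by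
  haveI : NeZero 2 := ⟨by norm_num⟩
  have hcP := card_sylow_two hG P
  let u' : (P : Subgroup G) := ⟨ρ, hρ⟩
  let v' : (P : Subgroup G) := ⟨v, hv⟩
  obtain ⟨e⟩ := Cfsg.Agent.Lib.PGroup.CyclicMax.quaternionEquivOfGens (G := (P : Subgroup G)) 2 (by rw [hcP])
    u' v' (by
      show orderOf u' = 4
      rw [Subgroup.orderOf_mk, hρ4])
    (by
      apply Subtype.ext
      show v * v = ρ ^ 2
      rw [hvv, pow_two])
    (by
      apply Subtype.ext
      exact hvρ)
    (by
      intro h
      obtain ⟨k, hk⟩ := mem_zpowers_iff.1 h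
      apply hvn
      have h1 : ρ ^ k = v := by
        have := congrArg Subtype.val hk
        simpa [u', v'] using this
      rw [← h1]
      exact zpow_mem (mem_zpowers ρ) k)
  have hc := Cfsg.Agent.S0201.result P 0 e (by
    intro N hN hodd
    rcases hN.eq_bot_or_eq_top with h | h
    · exact h
    · exfalso
      rw [h, Subgroup.card_top, hG] at hodd
      exact absurd hodd (by decide))
  rw [center_bot hG, Subgroup.card_bot] at hc
  omega

/-- **The shape of a Sylow `2`-subgroup.** -/
theorem sylow2_cases (hG : Nat.card G = 175560) (P : Sylow 2 G) :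
    (∀ x ∈ P, x * x = 1) ∨ ∃ ρ v : G, ρ ∈ P ∧ v ∈ P ∧ orderOf ρ = 4 ∧ v * v = 1 ∧ v * ρ * v⁻¹ = ρ⁻¹ ∧
      v ∉ zpowers ρ ∧ ∀ a ∈ P, a ∈ zpowers ρ ∨ a * v ∈ zpowers ρ := by
  classical
  by_cases hall : ∀ x ∈ P, x * x = 1
  · exact Or.inl hall
  right
  push Not at hall
  obtain ⟨ρ, hρ, hρρ⟩ := hall
  have hcP := card_sylow_two hG P
  have hd : orderOf ρ ∣ 8 := by
    rw [← hcP]
    exact Subgroup.orderOf_dvd_natCard (P : Subgroup G) hρ
  have hρ4 : orderOf ρ = 4 := by
    have hmem : orderOf ρ ∈ Nat.divisors 8 := Nat.mem_divisors.2 ⟨hd, by norm_num⟩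
    have hall : ∀ d ∈ Nat.divisors 8, d = 1 ∨ d = 2 ∨ d = 4 ∨ d = 8 := by decide
    rcases hall _ hmem with h | h | h | h
    · exact absurd (by rw [orderOf_eq_one_iff.1 h, one_mul]) hρρ
    · exact absurd (by rw [← pow_two, ← h, pow_orderOf_eq_one]) hρρ
    · exact h
    · exact absurd h (no_order_eight hG P hρ)
  have hρ44 : ρ ^ 4 = 1 := by rw [← hρ4, pow_orderOf_eq_one]
  have hAP : zpowers ρ ≤ (P : Subgroup G) := by
    rw [zpowers_le]
    exact hρ
  have hidx : ((zpowers ρ).subgroupOf (P : Subgroup G)).index = 2 := by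
    have h0 := Subgroup.card_mul_index ((zpowers ρ).subgroupOf (P : Subgroup G))
    rw [Nat.card_congr (subgroupOfEquivOfLe hAP).toEquiv, Nat.card_zpowers, hρ4, hcP] at h0
    omega
  obtain ⟨v, hv, hvn⟩ : ∃ v ∈ P, v ∉ zpowers ρ := by
    by_contra hcon
    push Not at hcon
    have h1 : (P : Subgroup G) ≤ zpowers ρ := fun x hx => hcon x hx
    have h2 := Subgroup.card_le_of_le h1
    rw [Nat.card_zpowers, hρ4, hcP] at h2
    omega
  let ι : (x : G) → x ∈ (P : Subgroup G) → (P : Subgroup G) := fun x hx => ⟨x, hx⟩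
  have hmemι : ∀ x (hx : x ∈ (P : Subgroup G)), ι x hx ∈ (zpowers ρ).subgroupOf (P : Subgroup G) ↔ x ∈ zpowers ρ :=
    fun x hx => Iff.rfl
  have hform : ∀ a ∈ P, a ∈ zpowers ρ ∨ a * v ∈ zpowers ρ := by
    intro a ha
    by_cases h : a ∈ zpowers ρ
    · exact Or.inl h
    · right
      have h1 := (Subgroup.mul_mem_iff_of_index_two hidx (a := ι a ha) (b := ι v hv)).2 (by
        rw [hmemι, hmemι]
        exact ⟨fun h2 => absurd h2 h, fun h2 => absurd h2 hvn⟩)
      exact h1
  have hsq : v ^ 2 ∈ zpowers ρ := Subgroup.sq_mem_of_index_two hidx (ι v hv)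
  -- the action of `v`
  have hconj : v * ρ * v⁻¹ ∈ zpowers ρ := by
    have h1 := (Subgroup.mul_mem_iff_of_index_two hidx (a := ι v hv) (b := ι ρ hρ)).not.2 (by
      rw [hmemι, hmemι]
      intro h2
      exact hvn (h2.2 (mem_zpowers ρ)))
    have h2 := (Subgroup.mul_mem_iff_of_index_two hidx (a := ι v hv * ι ρ hρ) (b := (ι v hv)⁻¹)).2 (by
      constructor
      · intro h3
        exact absurd h3 h1
      · intro h3
        exfalso
        exact hvn ((Subgroup.inv_mem_iff _).1 h3))
    exact h2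
  have hcases := mem_zpowers_four hρ44 hconj
  have hne1 : ρ * ρ ≠ 1 := hρρ
  have hρ1 : ρ ≠ 1 := by
    rintro rfl
    simp at hρ4
  have hcase : v * ρ * v⁻¹ = ρ ∨ v * ρ * v⁻¹ = ρ⁻¹ := by
    rcases hcases with h | h | h | h
    · exfalso
      apply hρ1
      have e : ρ = v⁻¹ * (v * ρ * v⁻¹) * v := by group
      rw [e, h]
      group
    · exact Or.inl h
    · exfalso
      apply hρ1
      have h2 : (v * ρ * v⁻¹) * (v * ρ * v⁻¹) = v * (ρ * ρ) * v⁻¹ := by group
      have h3 : (ρ * ρ) * (ρ * ρ) = 1 := by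
        rw [← four_eq]
        exact hρ44
      have h4 : v * (ρ * ρ) * v⁻¹ = 1 := by
        rw [← h2, h, h3]
      apply False.elim
      apply hne1
      have e : ρ * ρ = v⁻¹ * (v * (ρ * ρ) * v⁻¹) * v := by group
      rw [e, h4]
      group
    · exact Or.inr h
  rcases hcase with hc | hc
  · exfalso
    refine not_abelian_four hG P hρ hv hρ4 hvn hform hsq ?_
    calc v * ρ = (v * ρ * v⁻¹) * v := by group
      _ = ρ * v := by rw [hc]
  · have hvcv : v * (v * v) * v⁻¹ = v * v := by group
    have hvv := mem_zpowers_four hρ44 hsq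
    rw [pow_two] at hvv
    rcases hvv with h | h | h | h
    · exact ⟨ρ, v, hρ, hv, hρ4, h, hc, hvn, hform⟩
    · exfalso
      rw [h, hc] at hvcv
      apply hne1
      have h5 : ρ * ρ = 1 := by
        have h6 : ρ⁻¹ * ρ = ρ * ρ := by rw [hvcv]
        rw [← h6]
        group
      exact h5
    · exfalso
      exact not_quaternion hG P hρ hv hρ4 h hc hvn
    · exfalso
      rw [h] at hvcv
      have h7 : v * ρ⁻¹ * v⁻¹ = (v * ρ * v⁻¹)⁻¹ := by group
      rw [h7, hc, inv_inv] at hvcv
      apply hne1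
      calc ρ * ρ = ρ⁻¹ * ρ := by rw [← hvcv]
        _ = 1 := by group

/-- The table excludes four from the centralizers. -/
theorem not_four_dvd_cc (hG : Nat.card G = 175560) {p : ℕ} (hp : p ∈ [19, 11, 7, 5, 3]) : ¬ 4 ∣ cc G p := by
  obtain ⟨h19, h11, h7, h5, h3⟩ := tab hG
  simp only [List.mem_cons, List.not_mem_nil, or_false] at hp
  rcases hp with rfl | rfl | rfl | rfl | rfl
  · rcases h19 with h | h | h <;> rw [h] <;> norm_num
  · rcases h11 with h | h | h <;> rw [h] <;> norm_num
  · rcases h7 with h | h <;> rw [h] <;> norm_num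
  · rcases h5 with h | h <;> rw [h] <;> norm_num
  · rw [h3]; norm_num

/-- A `p`-subgroup of order divisible by `p` has order `p`. -/
theorem card_pgroup_of_ex {p : ℕ} [Fact p.Prime] (h : Ex G p) (H : Subgroup G) (hH : IsPGroup p H)
    (hd : p ∣ Nat.card H) : Nat.card H = p := by
  obtain ⟨n, hn⟩ := IsPGroup.iff_card.1 hH
  rcases n with _ | _ | n
  · rw [hn, pow_zero] at hd
    exact absurd (Nat.dvd_one.1 hd) h.prime.one_lt.ne'
  · rw [hn, zero_add, pow_one]
  · exfalso
    apply h.sq
    have h1 : p ^ 2 ∣ Nat.card H := by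
      rw [hn]
      exact pow_dvd_pow p (by omega)
    exact h1.trans (Subgroup.card_subgroup_dvd_card _)

/-- The dihedral case does not occur. -/
theorem not_dihedral (hG : Nat.card G = 175560) (P : Sylow 2 G) {ρ v : G} (hρ : ρ ∈ P) (hv : v ∈ P)
    (hρ4 : orderOf ρ = 4) (hvv : v * v = 1) (hvρ : v * ρ * v⁻¹ = ρ⁻¹) (hvn : v ∉ zpowers ρ)
    (hform : ∀ a ∈ P, a ∈ zpowers ρ ∨ a * v ∈ zpowers ρ) : False := by
  classical
  haveI : NeZero 4 := ⟨by norm_num⟩
  haveI hf2 : Fact (Nat.Prime 2) := ⟨Nat.prime_two⟩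
  have hcP := card_sylow_two hG P
  have hρ44 : ρ ^ 4 = 1 := by rw [← hρ4, pow_orderOf_eq_one]
  have hρ4' : ρ * ρ * (ρ * ρ) = 1 := by rw [← four_eq]; exact hρ44
  have hρρ : ρ * ρ ≠ 1 := by
    intro h
    have h1 : orderOf ρ ∣ 2 := orderOf_dvd_of_pow_eq_one (by rw [pow_two]; exact h)
    rw [hρ4] at h1
    omega
  have hvi : v⁻¹ = v := inv_eq_of_mul_eq_one_left hvv
  let u' : (P : Subgroup G) := ⟨ρ, hρ⟩
  let v' : (P : Subgroup G) := ⟨v, hv⟩
  obtain ⟨e⟩ := Cfsg.Agent.Lib.PGroup.CyclicMax.dihedralEquivOfGens (G := (P : Subgroup G)) 4 (by rw [hcP])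
    u' v' (by rw [Subgroup.orderOf_mk, hρ4]) (Subtype.ext hvv) (Subtype.ext hvρ)
    (by
      intro h
      obtain ⟨k, hk⟩ := mem_zpowers_iff.1 h
      apply hvn
      have h1 : ρ ^ k = v := by
        have := congrArg Subtype.val hk
        simpa [u', v'] using this
      rw [← h1]
      exact zpow_mem (mem_zpowers ρ) k)
  set t := ρ * ρ with ht_def
  have ht : orderOf t = 2 := by
    apply orderOf_eq_prime
    · rw [pow_two]; exact hρ4'
    · exact hρρ
  have htt : t * t = 1 := hρ4'
  have hti : t⁻¹ = t := inv_eq_of_mul_eq_one_left htt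
  have hvt : v * t = t * v := by
    have h1 : v * t * v⁻¹ = t⁻¹ := by
      have : v * (ρ * ρ) * v⁻¹ = (v * ρ * v⁻¹) * (v * ρ * v⁻¹) := by group
      rw [ht_def, this, hvρ]
      group
    rw [hti] at h1
    calc v * t = (v * t * v⁻¹) * v := by group
      _ = t * v := by rw [h1]
  have hρt : ρ * t = t * ρ := by
    rw [ht_def]
    group
  have hcomt : ∀ a ∈ P, a * t = t * a := by
    intro a ha
    have hc1 : Commute ρ t := hρt
    have hc2 : Commute v t := hvt
    rcases hform a ha with h | h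
    · obtain ⟨k, rfl⟩ := mem_zpowers_iff.1 h
      exact (hc1.zpow_left k).eq
    · obtain ⟨k, hk⟩ := mem_zpowers_iff.1 h
      have h1 : a = ρ ^ k * v⁻¹ := by
        rw [hk]
        group
      rw [h1]
      exact ((hc1.zpow_left k).mul_left hc2.inv_left).eq
  set X := centralizer ({t} : Set G) with hX
  have hPX : (P : Subgroup G) ≤ X := by
    intro a ha
    rw [hX, mem_centralizer_singleton_iff]
    exact hcomt a ha
  obtain ⟨N, hNn, hNodd, k, hk⟩ := Cfsg.Agent.S0514.result P 4 (by norm_num) ⟨e⟩ t ht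
  haveI := hNn
  have hXd : Nat.card X ∣ 175560 := by
    rw [← hG]
    exact Subgroup.card_subgroup_dvd_card _
  have h8X : 8 ∣ Nat.card X := by
    rw [← hcP]
    exact Subgroup.card_dvd_of_le hPX
  have hNbot : Nat.card N = 1 := by
    by_contra hne
    obtain ⟨p, hpp, hpd⟩ := Nat.exists_prime_and_dvd hne
    haveI hfp : Fact p.Prime := ⟨hpp⟩
    have hp2 : p ≠ 2 := by
      rintro rfl
      exact (Nat.not_even_iff_odd.2 hNodd) (even_iff_two_dvd.2 hpd)
    have hpG : p ∣ 175560 := (hpd.trans (Subgroup.card_subgroup_dvd_card N)).trans hXd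
    have hmem := prime_mem hpp hpG hp2
    have hex : Ex G p := ex_of hG hmem
    -- the action
    let φ : (P : Subgroup G) →* MulAut N := (MulAut.conjNormal : X →* MulAut N).comp (Subgroup.inclusion hPX)
    letI act : MulAction (P : Subgroup G) (Sylow p N) := MulAction.compHom (Sylow p N) φ
    have hodd : ¬ 2 ∣ Nat.card (Sylow p N) := by
      obtain ⟨R₀⟩ : Nonempty (Sylow p N) := inferInstance
      have h1 := Sylow.card_dvd_index R₀
      have h2 := Subgroup.index_dvd_card (R₀ : Subgroup N)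
      intro h3
      exact (Nat.not_even_iff_odd.2 hNodd) (even_iff_two_dvd.2 (h3.trans (h1.trans h2)))
    obtain ⟨R, hR⟩ := P.isPGroup'.nonempty_fixed_point_of_prime_not_dvd_card (Sylow p N) hodd
    have hRd : p ∣ Nat.card R := R.dvd_card_of_dvd_card hpd
    obtain ⟨y₀, hy₀⟩ := exists_prime_orderOf_dvd_card' p hRd
    set y : G := (((y₀ : N) : X) : G) with hy_def
    have hy : orderOf y = p := by
      rw [hy_def, Subgroup.orderOf_coe, Subgroup.orderOf_coe, Subgroup.orderOf_coe, hy₀]
    let R' : Subgroup G := ((R : Subgroup N).map N.subtype).map X.subtype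
    have hyR' : y ∈ R' := ⟨_, ⟨_, y₀.2, rfl⟩, rfl⟩
    have hR'P : IsPGroup p R' := (R.isPGroup'.map _).map _
    have hR'c : Nat.card R' = p := by
      apply card_pgroup_of_ex hex R' hR'P
      have e1 : Nat.card R' = Nat.card R := by
        show Nat.card (((R : Subgroup N).map N.subtype).map X.subtype) = _
        rw [Subgroup.card_map_of_injective X.subtype_injective,
          Subgroup.card_map_of_injective N.subtype_injective]
      rw [e1]
      exact hRd
    have hzp : zpowers y = R' := by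
      apply Subgroup.eq_of_le_of_card_ge
      · rw [zpowers_le]
        exact hyR'
      · rw [hR'c, Nat.card_zpowers, hy]
    have hnorm : ∀ g ∈ P, g * y * g⁻¹ ∈ zpowers y := by
      intro g hg
      rw [hzp]
      have h1 : φ ⟨g, hg⟩ • R = R := hR ⟨g, hg⟩
      have h3 := Subgroup.smul_mem_pointwise_smul (y₀ : N) (φ ⟨g, hg⟩) (R : Subgroup N) y₀.2
      rw [← Sylow.pointwise_smul_def, h1] at h3
      have h5 : (((φ ⟨g, hg⟩ • (y₀ : N) : N) : X) : G) = g * y * g⁻¹ := by
        have h6 := MulAut.conjNormal_apply (H := N) (⟨g, hPX hg⟩ : X) (y₀ : N)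
        exact congrArg Subtype.val h6
      exact ⟨_, ⟨_, h3, rfl⟩, h5⟩
    have hyt : y * t = t * y := mem_centralizer_singleton_iff.1 ((y₀ : N) : X).2
    have hvy := Cfsg.Agent.Lib.J1Ord.conj_eq_or_inv hpp hy hvv (hnorm v hv)
    have hww : v * ρ * (v * ρ) = 1 := by
      have h1 : v * ρ * v = ρ⁻¹ := by
        rw [← hvρ, hvi]
      rw [← mul_assoc, h1]
      group
    have hwy := Cfsg.Agent.Lib.J1Ord.conj_eq_or_inv hpp hy hww (hnorm (v * ρ) (mul_mem hv hρ))
    have hAt : zpowers t ≤ zpowers ρ := by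
      rw [zpowers_le]
      exact mul_mem (mem_zpowers ρ) (mem_zpowers ρ)
    have comm_of : ∀ c : G, c * y * c⁻¹ = y → c * y = y * c := by
      intro c hc
      calc c * y = (c * y * c⁻¹) * c := by group
        _ = y * c := by rw [hc]
    obtain ⟨c, hcP', hcy, hct⟩ : ∃ c ∈ P, c * y = y * c ∧ c ∉ zpowers t := by
      rcases hvy with h1 | h1
      · exact ⟨v, hv, comm_of _ h1, fun h => hvn (hAt h)⟩
      · rcases hwy with h2 | h2
        · refine ⟨v * ρ, mul_mem hv hρ, comm_of _ h2, fun h => hvn ?_⟩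
          have h3 := hAt h
          have e2 : v = v * ρ * ρ⁻¹ := by group
          rw [e2]
          exact mul_mem h3 (inv_mem (mem_zpowers ρ))
        · refine ⟨ρ, hρ, comm_of _ ?_, ?_⟩
          · have e2 : ρ * y * ρ⁻¹ = v⁻¹ * (v * ρ * y * (v * ρ)⁻¹) * v := by group
            rw [e2, h2, hvi]
            have e3 : v * y⁻¹ * v = (v * y * v⁻¹)⁻¹ := by
              rw [hvi]
              have e4 : (v * y * v)⁻¹ = v⁻¹ * y⁻¹ * v⁻¹ := by group
              rw [e4, hvi]
            rw [e3, h1, inv_inv]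
          · intro h
            rcases Cfsg.Agent.Lib.J1Ord.mem_zpowers_of_sq htt h with h3 | h3
            · apply hρρ
              rw [ht_def, h3, one_mul]
            · apply hρρ
              have h4 : ρ = 1 := by
                have h5 : ρ = ρ * ρ := h3
                calc ρ = ρ * ρ * ρ⁻¹ := by group
                  _ = ρ * ρ⁻¹ := by rw [← h5]
                  _ = 1 := by group
              rw [ht_def, h4, one_mul]
    set D := (P : Subgroup G) ⊓ centralizer ({y} : Set G) with hD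
    have htD : t ∈ D := ⟨mul_mem hρ hρ, mem_centralizer_singleton_iff.2 hyt.symm⟩
    have hcD : c ∈ D := ⟨hcP', mem_centralizer_singleton_iff.2 hcy⟩
    have h4D : 4 ∣ Nat.card D := by
      have hd : Nat.card D ∣ 8 := by
        rw [← hcP]
        exact Subgroup.card_dvd_of_le inf_le_left
      have h2 : 2 ∣ Nat.card D := by
        have := Subgroup.orderOf_dvd_natCard D htD
        rwa [ht] at this
      have hm : Nat.card D ∈ Nat.divisors 8 := Nat.mem_divisors.2 ⟨hd, by norm_num⟩
      have hall : ∀ d ∈ Nat.divisors 8, 2 ∣ d → d = 2 ∨ 4 ∣ d := by decide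
      rcases hall _ hm h2 with h | h
      · exfalso
        have he : zpowers t = D := by
          apply Subgroup.eq_of_le_of_card_ge
          · rw [zpowers_le]
            exact htD
          · rw [Nat.card_zpowers, ht, h]
        apply hct
        rw [he]
        exact hcD
      · exact h
    apply not_four_dvd_cc hG hmem
    rw [← card_cen_of_order hex hy]
    exact h4D.trans (Subgroup.card_dvd_of_le inf_le_right)
  -- `X` is the Sylow subgroup
  have hcX : Nat.card X = 2 ^ k := by
    have h := Subgroup.card_mul_index N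
    rw [hNbot, one_mul, hk] at h
    exact h.symm
  have hX8 : Nat.card X = 8 := by
    rw [hcX] at hXd h8X ⊢
    have hk3 : k = 3 := by
      rcases lt_trichotomy k 3 with h | h | h
      · exfalso
        interval_cases k <;> norm_num at h8X
      · exact h
      · exfalso
        have h1 : 2 ^ 4 ∣ 2 ^ k := pow_dvd_pow 2 (by omega)
        have h2 := h1.trans hXd
        norm_num at h2
    rw [hk3]
    norm_num
  have hPeq : (P : Subgroup G) = X := by
    apply Subgroup.eq_of_le_of_card_ge hPX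
    rw [hX8, hcP]
  have e₁ : X ≃* DihedralGroup 4 := (MulEquiv.subgroupCongr hPeq.symm).trans e
  have hfin := Cfsg.Agent.S0848.result (comm_top hG) t ht e₁
  rw [hG] at hfin
  omega

end Split

end Cfsg.Agent.Lib.J1Ord.O175
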