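import Mathlib
import Cfsg.Agent.Lib.J1Ord.O175Two
import Cfsg.Agent.Lib.SmallOrd.InvolTools
import Cfsg.Agent.Lib.Basic.SylowUtil
import Cfsg.Agent.S3993
import Cfsg.Agent.S0215

/-!
# The centralizer of an involution in a simple group of order 175560 has order 120
-/

set_option autoImplicit false

namespace Cfsg.Agent.Lib.J1Ord.O175

open Subgroup Cfsg.Agent.S4274 Cfsg.Agent.Lib.SmallOrd.InvolTools

universe u

/-- Seven points split into classes of odd size greater than one form a single class. -/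
theorem all_conj_of_odd {Γ : Type*} [Group Γ] [Finite Γ] (S : Finset Γ) (hS : S.card = 7)
    (hcl : ∀ x ∈ S, ∀ y, IsConj x y → y ∈ S) (hodd : ∀ x ∈ S, Odd (cls x).card)
    (hne : ∀ x ∈ S, (cls x).card ≠ 1) : ∀ x ∈ S, ∀ y ∈ S, IsConj x y := by
  classical
  intro x hx y hy
  by_contra hxy
  have hsub : ∀ u ∈ S, cls u ⊆ S := by
    intro u hu w hw
    exact hcl u hu w ((mem_cls u w).1 hw)
  have hdisj : Disjoint (cls x) (cls y) := by
    rw [Finset.disjoint_left]
    intro w h1 h2
    exact hxy (((mem_cls x w).1 h1).trans ((mem_cls y w).1 h2).symm)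
  have hcard : (cls x ∪ cls y).card = (cls x).card + (cls y).card := Finset.card_union_of_disjoint hdisj
  have hle : (cls x ∪ cls y).card ≤ S.card := Finset.card_le_card (Finset.union_subset (hsub x hx) (hsub y hy))
  have hox := hodd x hx
  have hoy := hodd y hy
  have hnx := hne x hx
  have hny := hne y hy
  obtain ⟨a, ha⟩ := hox
  obtain ⟨b, hb⟩ := hoy
  have hU : (S \ (cls x ∪ cls y)).card = 1 := by
    rw [Finset.card_sdiff_of_subset (Finset.union_subset (hsub x hx) (hsub y hy)), hcard, hS]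
    omega
  obtain ⟨u, hu⟩ := Finset.card_eq_one.1 hU
  have huU : u ∈ S \ (cls x ∪ cls y) := by
    rw [hu]
    exact Finset.mem_singleton_self u
  rw [Finset.mem_sdiff, Finset.mem_union, not_or] at huU
  obtain ⟨huS, hux, huy⟩ := huU
  apply hne u huS
  have huu : u ∈ cls u := (mem_cls u u).2 (IsConj.refl u)
  have hcu : cls u = {u} := by
    rw [Finset.eq_singleton_iff_unique_mem]
    refine ⟨huu, fun w hw => ?_⟩
    have hwS := hsub u huS hw
    have hw' : IsConj u w := (mem_cls u w).1 hw
    have hwU : w ∈ S \ (cls x ∪ cls y) := by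
      rw [Finset.mem_sdiff, Finset.mem_union, not_or]
      refine ⟨hwS, fun h => hux ?_, fun h => huy ?_⟩
      · exact (mem_cls x u).2 (((mem_cls x w).1 h).trans hw'.symm)
      · exact (mem_cls y u).2 (((mem_cls y w).1 h).trans hw'.symm)
    rw [hu] at hwU
    exact Finset.mem_singleton.1 hwU
  rw [hcu, Finset.card_singleton]

variable {G : Type u} [Group G] [Finite G]

section Simple

variable [IsSimpleGroup G]

/-- The Sylow `2`-subgroups are elementary abelian. -/
theorem exp_two (hG : Nat.card G = 175560) (P : Sylow 2 G) : ∀ x ∈ P, x * x = 1 := by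
  rcases sylow2_cases hG P with h | ⟨ρ, v, hρ, hv, hρ4, hvv, hvρ, hvn, hform⟩
  · exact h
  · exact (not_dihedral hG P hρ hv hρ4 hvv hvρ hvn hform).elim

/-- An exponent two group is abelian. -/
theorem comm_of_exp_two {P : Subgroup G} (hP : ∀ x ∈ P, x * x = 1) {a b : G} (ha : a ∈ P) (hb : b ∈ P) :
    a * b = b * a := by
  have h1 := hP _ (mul_mem ha hb)
  have h2 := hP a ha
  have h3 := hP b hb
  calc a * b = a * (a * b * (a * b)) * b := by rw [h1]; group
    _ = (a * a) * b * a * (b * b) := by group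
    _ = b * a := by rw [h2, h3]; group

/-- An isolated involution of a Sylow subgroup does not exist. -/
theorem not_isolated (hG : Nat.card G = 175560) (P : Sylow 2 G) {u : G} (huP : u ∈ P) (hu1 : u ≠ 1)
    (hiso : ∀ g : G, g * u * g⁻¹ ∈ P → g * u * g⁻¹ = u) : False := by
  have huu := exp_two hG P u huP
  have hord : orderOf u = 2 := orderOf_eq_prime (by rw [pow_two]; exact huu) hu1
  obtain ⟨N, hN, hNodd, hNg⟩ := Cfsg.Agent.S0215.result P u hord huP hiso
  rcases hN.eq_bot_or_eq_top with h0 | h0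
  · have hc : u ∈ center G := by
      rw [mem_center_iff]
      intro g
      have h1 := hNg g
      rw [h0, Subgroup.mem_bot] at h1
      have h3 : u * g * u⁻¹ = g := by
        rw [mul_inv_eq_one] at h1
        exact h1
      calc g * u = u * g * u⁻¹ * u := by rw [h3]
        _ = u * g := by group
    rw [center_bot hG, Subgroup.mem_bot] at hc
    exact hu1 hc
  · rw [h0, Subgroup.card_top, hG] at hNodd
    exact absurd hNodd (by decide)

/-- Two nontrivial elements of a Sylow `2`-subgroup are conjugate. -/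
theorem e8_conj (hG : Nat.card G = 175560) (P : Sylow 2 G) {x y : G} (hx : x ∈ P) (hx1 : x ≠ 1) (hy : y ∈ P)
    (hy1 : y ≠ 1) : IsConj x y := by
  classical
  haveI : Fintype G := Fintype.ofFinite G
  have hP := exp_two hG P
  have hcP := card_sylow_two hG P
  have hcomm : ∀ {a b : G}, a ∈ (P : Subgroup G) → b ∈ (P : Subgroup G) → a * b = b * a := fun ha hb =>
    comm_of_exp_two (P := (P : Subgroup G)) hP ha hb
  set N := normalizer ((P : Subgroup G) : Set G) with hN
  have hPN : (P : Subgroup G) ≤ N := Subgroup.le_normalizer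
  let ι : (P : Subgroup G) →* N := Subgroup.inclusion hPN
  have hι : Function.Injective ι := Subgroup.inclusion_injective hPN
  haveI : Fintype (P : Subgroup G) := Fintype.ofFinite _
  haveI : Fintype N := Fintype.ofFinite _
  let S : Finset N := ((Finset.univ : Finset (P : Subgroup G)).erase 1).image ι
  have hSm : ∀ z : N, z ∈ S ↔ (z : G) ∈ (P : Subgroup G) ∧ (z : G) ≠ 1 := by
    intro z
    simp only [S, Finset.mem_image, Finset.mem_erase, Finset.mem_univ, and_true]
    constructor
    · rintro ⟨a, ha, rfl⟩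
      refine ⟨a.2, fun h => ha (Subtype.ext h)⟩
    · rintro ⟨h1, h2⟩
      refine ⟨⟨z, h1⟩, fun h => h2 (congrArg Subtype.val h), rfl⟩
  have hScard : S.card = 7 := by
    rw [Finset.card_image_of_injective _ hι, Finset.card_erase_of_mem (Finset.mem_univ _), Finset.card_univ,
      ← Nat.card_eq_fintype_card, hcP]
  have hall := all_conj_of_odd S hScard ?_ ?_ ?_
  · obtain ⟨c, hc⟩ := isConj_iff.1 (hall ⟨x, hPN hx⟩ ((hSm _).2 ⟨hx, hx1⟩) ⟨y, hPN hy⟩ ((hSm _).2 ⟨hy, hy1⟩))
    exact isConj_iff.2 ⟨c, congrArg Subtype.val hc⟩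
  · intro a ha b hb
    obtain ⟨c, rfl⟩ := isConj_iff.1 hb
    obtain ⟨h1, h2⟩ := (hSm a).1 ha
    refine (hSm _).2 ⟨?_, ?_⟩
    · exact (mem_normalizer_iff.1 c.2 a).1 h1
    · intro h
      apply h2
      have h3 : (c : G) * a * (c : G)⁻¹ = 1 := h
      have e : (a : G) = (c : G)⁻¹ * ((c : G) * a * (c : G)⁻¹) * c := by group
      rw [e, h3]
      group
  · intro a ha
    obtain ⟨h1, h2⟩ := (hSm a).1 ha
    have hm := card_cls_mul a
    have h8 : 8 ∣ Nat.card (centralizer ({a} : Set N)) := by
      have hle : (P : Subgroup G).subgroupOf N ≤ centralizer ({a} : Set N) := by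
        intro b hb
        rw [mem_centralizer_singleton_iff]
        apply Subtype.ext
        exact hcomm hb h1
      have h3 := Subgroup.card_dvd_of_le hle
      rwa [Nat.card_congr (subgroupOfEquivOfLe hPN).toEquiv, hcP] at h3
    have hNd : Nat.card N ∣ 175560 := by
      rw [← hG]
      exact Subgroup.card_subgroup_dvd_card _
    obtain ⟨k, hk⟩ := h8
    rw [hk] at hm
    by_contra hne
    rw [Nat.not_odd_iff_even] at hne
    obtain ⟨r, hr⟩ := hne
    have h16 : 16 ∣ Nat.card N := by
      rw [← hm, hr]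
      exact ⟨r * k, by ring⟩
    have h5 := h16.trans hNd
    norm_num at h5
  · intro a ha hc1
    obtain ⟨h1, h2⟩ := (hSm a).1 ha
    have hcu : cls a = {a} := by
      obtain ⟨w, hw⟩ := Finset.card_eq_one.1 hc1
      have haa : a ∈ cls a := (mem_cls a a).2 (IsConj.refl a)
      rw [hw] at haa ⊢
      rw [Finset.mem_singleton] at haa
      rw [haa]
    refine not_isolated hG P h1 h2 (fun g hg => ?_)
    obtain ⟨n, hn, hne⟩ := Cfsg.Agent.Lib.Basic.SylowUtil.burnside_fusion P ({(a : G)} : Set G) g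
      (by
        intro z hz b hb
        rw [Set.mem_singleton_iff] at hz
        rw [hz]
        exact hcomm h1 hb)
      (by
        intro z hz b hb
        rw [Set.mem_singleton_iff] at hz
        rw [hz]
        exact hcomm hg hb)
    have h3 := hne a (Set.mem_singleton _)
    rw [← h3]
    have h4 : (⟨n, hn⟩ : N) * a * (⟨n, hn⟩ : N)⁻¹ ∈ cls a :=
      (mem_cls a _).2 (isConj_iff.2 ⟨_, rfl⟩)
    rw [hcu, Finset.mem_singleton] at h4
    exact congrArg Subtype.val h4

/-- All involutions are conjugate. -/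
theorem all_inv_conj (hG : Nat.card G = 175560) (P : Sylow 2 G) {t : G} (ht : t ∈ P) (ht1 : t ≠ 1) {y : G}
    (hyy : y * y = 1) (hy1 : y ≠ 1) : IsConj t y := by
  have hyo : orderOf y = 2 := orderOf_eq_prime (by rw [pow_two]; exact hyy) hy1
  have hyp : IsPGroup 2 (zpowers y) := IsPGroup.of_card (n := 1) (by rw [Nat.card_zpowers, hyo, pow_one])
  obtain ⟨Q', hQ'⟩ := hyp.exists_le_sylow
  obtain ⟨g, hg⟩ := MulAction.exists_smul_eq G Q' P
  have h1 : g * y * g⁻¹ ∈ (P : Subgroup G) := by
    rw [← hg, Sylow.coe_subgroup_smul]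
    exact ⟨y, hQ' (mem_zpowers y), rfl⟩
  have h2 : g * y * g⁻¹ ≠ 1 := by
    intro h
    apply hy1
    have : y = g⁻¹ * (g * y * g⁻¹) * g := by group
    rw [this, h]
    group
  refine (e8_conj hG P ht ht1 h1 h2).trans (IsConj.symm ?_)
  rw [isConj_iff]
  exact ⟨g, rfl⟩

/-- Frobenius' theorem gives the number of involutions modulo eight. -/
theorem frob_count (hG : Nat.card G = 175560) (P : Sylow 2 G) {t : G} (ht : t ∈ P) (ht1 : t ≠ 1) :
    8 ∣ (cls t).card + 1 := by
  classical
  have h := Cfsg.Agent.S3993.result (G := G) 8 (by rw [hG]; norm_num)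
  have htt := exp_two hG P t ht
  have hmem : ∀ g : G, g ∈ insert 1 (cls t) ↔ g ^ 8 = 1 := by
    intro g
    rw [Finset.mem_insert, mem_cls]
    constructor
    · rintro (rfl | h1)
      · simp
      · obtain ⟨c, rfl⟩ := isConj_iff.1 h1
        have e1 : (c * t * c⁻¹) ^ 8 = c * t ^ 8 * c⁻¹ := conj_pow
        have e2 : t ^ 8 = (t * t) ^ 4 := by
          rw [← pow_two, ← pow_mul]
        rw [e1, e2, htt]
        simp
    · intro h8
      by_cases hg1 : g = 1
      · exact Or.inl hg1
      right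
      have hd : orderOf g ∣ 2 ^ 3 := orderOf_dvd_of_pow_eq_one (by norm_num; exact h8)
      obtain ⟨k, -, hk⟩ := (Nat.dvd_prime_pow Nat.prime_two).1 hd
      have hyp : IsPGroup 2 (zpowers g) := IsPGroup.of_card (n := k) (by rw [Nat.card_zpowers, hk])
      obtain ⟨Q', hQ'⟩ := hyp.exists_le_sylow
      exact all_inv_conj hG P ht ht1 (exp_two hG Q' g (hQ' (mem_zpowers g))) hg1
  have hc := Nat.subtype_card (insert 1 (cls t)) hmem
  have h1n : (1 : G) ∉ cls t := by
    intro h1
    obtain ⟨c, hc⟩ := isConj_iff.1 ((mem_cls t 1).1 h1)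
    apply ht1
    have e : t = c⁻¹ * (c * t * c⁻¹) * c := by group
    rw [e, hc]
    group
  rw [hc, Finset.card_insert_of_notMem h1n] at h
  exact h

end Simple

/-- Two involutions are conjugate when four does not divide the order. -/
theorem four_free_conj {W : Type*} [Group W] [Finite W] (h4 : ¬ 4 ∣ Nat.card W) {a b : W} (ha : a * a = 1)
    (ha1 : a ≠ 1) (hb : b * b = 1) (hb1 : b ≠ 1) : IsConj a b := by
  haveI hf2 : Fact (Nat.Prime 2) := ⟨Nat.prime_two⟩
  have key : ∀ c : W, c * c = 1 → c ≠ 1 → ∃ Q : Sylow 2 W, (Q : Subgroup W) = zpowers c := by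
    intro c hc hc1
    have ho : orderOf c = 2 := orderOf_eq_prime (by rw [pow_two]; exact hc) hc1
    have hp : IsPGroup 2 (zpowers c) := IsPGroup.of_card (n := 1) (by rw [Nat.card_zpowers, ho, pow_one])
    obtain ⟨Q, hQ⟩ := hp.exists_le_sylow
    refine ⟨Q, (Subgroup.eq_of_le_of_card_ge hQ ?_).symm⟩
    rw [Nat.card_zpowers, ho]
    obtain ⟨k, hk⟩ := IsPGroup.iff_card.1 Q.isPGroup'
    have hd : Nat.card Q ∣ Nat.card W := Subgroup.card_subgroup_dvd_card _
    have hk' : Nat.card (Q : Subgroup W) = 2 ^ k := hk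
    rw [hk']
    rcases k with _ | _ | k
    · norm_num
    · norm_num
    · exfalso
      apply h4
      refine Dvd.dvd.trans ?_ hd
      show 4 ∣ Nat.card (Q : Subgroup W)
      rw [hk']
      exact ⟨2 ^ k, by ring⟩
  obtain ⟨Qa, hQa⟩ := key a ha ha1
  obtain ⟨Qb, hQb⟩ := key b hb hb1
  obtain ⟨g, hg⟩ := MulAction.exists_smul_eq W Qa Qb
  have h1 : g * a * g⁻¹ ∈ zpowers b := by
    rw [← hQb, ← hg, Sylow.coe_subgroup_smul]
    exact ⟨a, by rw [hQa]; exact mem_zpowers a, rfl⟩
  rcases Cfsg.Agent.Lib.J1Ord.mem_zpowers_of_sq hb h1 with h2 | h2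
  · exfalso
    apply ha1
    have e : a = g⁻¹ * (g * a * g⁻¹) * g := by group
    rw [e, h2]
    group
  · exact isConj_iff.2 ⟨g, h2⟩

/-- The involutions commuting with an element of prime order. -/
theorem count_fix {p : ℕ} [hf : Fact p.Prime] (hex : Ex G p) (hp2 : p ≠ 2) {t y : G} (htt : t * t = 1)
    (ht1 : t ≠ 1) (hy : orderOf y = p) (hyt : y * t = t * y) (h4 : ¬ 4 ∣ cc G p) :
    ∃ d, (cls t).card ≡ d [MOD p] ∧ d * (2 * p) ∣ cc G p := by
  classical
  have hyp : y ^ p = 1 := by rw [← hy, pow_orderOf_eq_one]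
  set A : Set G := ((cls t : Finset G) : Set G) with hA
  have hAm : ∀ x, x ∈ A ↔ IsConj t x := by
    intro x
    rw [hA, Finset.mem_coe, mem_cls]
  have hinv : ∀ x, x ∈ A ↔ y * x * y⁻¹ ∈ A := by
    intro x
    rw [hAm, hAm]
    have : IsConj x (y * x * y⁻¹) := isConj_iff.2 ⟨y, rfl⟩
    exact ⟨fun h => h.trans this, fun h => h.trans this.symm⟩
  have hm := conj_fixed_mod hyp A hinv
  have hcardA : Nat.card A = (cls t).card := by
    rw [hA, Nat.card_coe_set_eq, Set.ncard_coe_finset]
  rw [hcardA] at hm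
  refine ⟨_, hm, ?_⟩
  set W := centralizer ({y} : Set G) with hW
  have hcW : Nat.card W = cc G p := card_cen_of_order hex hy
  have htW : t ∈ W := mem_centralizer_singleton_iff.2 hyt.symm
  have hyW : y ∈ W := mem_centralizer_singleton_iff.2 rfl
  let t' : W := ⟨t, htW⟩
  let y' : W := ⟨y, hyW⟩
  have h4W : ¬ 4 ∣ Nat.card W := by rwa [hcW]
  have ht't' : t' * t' = 1 := Subtype.ext htt
  have ht'1 : t' ≠ 1 := fun h => ht1 (congrArg Subtype.val h)
  have hbij : Nat.card {x : G // x ∈ A ∧ y * x = x * y} = (cls t').card := by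
    rw [← Nat.subtype_card (cls t') (mem_cls t')]
    refine Nat.card_congr ⟨fun x => ⟨⟨x.1, mem_centralizer_singleton_iff.2 x.2.2.symm⟩, ?_⟩,
      fun w => ⟨(w.1 : G), (hAm _).2 ?_, (mem_centralizer_singleton_iff.1 w.1.2).symm⟩,
      fun x => rfl, fun w => rfl⟩
    · obtain ⟨c, hc⟩ := isConj_iff.1 ((hAm _).1 x.2.1)
      apply four_free_conj h4W ht't' ht'1
      · apply Subtype.ext
        show x.1 * x.1 = 1
        rw [← hc]
        calc c * t * c⁻¹ * (c * t * c⁻¹) = c * (t * t) * c⁻¹ := by group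
          _ = 1 := by rw [htt]; group
      · intro h
        have h1 : x.1 = 1 := congrArg Subtype.val h
        apply ht1
        have e : t = c⁻¹ * (c * t * c⁻¹) * c := by group
        rw [e, hc, h1]
        group
    · obtain ⟨c, hc⟩ := isConj_iff.1 w.2
      exact isConj_iff.2 ⟨c.1, congrArg Subtype.val hc⟩
  rw [hbij]
  have hm2 := card_cls_mul t'
  have hy'C : y' ∈ centralizer ({t'} : Set W) := by
    rw [mem_centralizer_singleton_iff]
    exact Subtype.ext hyt
  have ht'C : t' ∈ centralizer ({t'} : Set W) := by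
    rw [mem_centralizer_singleton_iff]
  have hd1 : p ∣ Nat.card (centralizer ({t'} : Set W)) := by
    have := Subgroup.orderOf_dvd_natCard _ hy'C
    rwa [show orderOf y' = p by rw [Subgroup.orderOf_mk, hy]] at this
  have hd2 : 2 ∣ Nat.card (centralizer ({t'} : Set W)) := by
    have := Subgroup.orderOf_dvd_natCard _ ht'C
    have ho : orderOf t' = 2 := orderOf_eq_prime (by rw [pow_two]; exact ht't') ht'1
    rwa [ho] at this
  have hcop : Nat.Coprime 2 p := (Nat.coprime_primes Nat.prime_two hf.out).2 (Ne.symm hp2)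
  obtain ⟨m, hm'⟩ := Nat.Coprime.mul_dvd_of_dvd_of_dvd hcop hd2 hd1
  rw [← hcW, ← hm2, hm']
  exact ⟨m, by ring⟩

/-- **The order of the centralizer of an involution.** -/
theorem card_cen_inv [IsSimpleGroup G] (hG : Nat.card G = 175560) (P : Sylow 2 G) {t : G} (ht : t ∈ P)
    (ht1 : t ≠ 1) : Nat.card (centralizer ({t} : Set G)) = 120 := by
  classical
  haveI hf19 : Fact (Nat.Prime 19) := ⟨by norm_num⟩
  haveI hf7 : Fact (Nat.Prime 7) := ⟨by norm_num⟩
  haveI hf5 : Fact (Nat.Prime 5) := ⟨by norm_num⟩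
  obtain ⟨h19, h11, h7, h5, h3⟩ := tab hG
  have htt := exp_two hG P t ht
  have hcP := card_sylow_two hG P
  set X := centralizer ({t} : Set G) with hX
  have hI : (cls t).card * Nat.card X = 175560 := by rw [card_cls_mul, hG]
  have h8 : 8 ∣ Nat.card X := by
    rw [← hcP]
    apply Subgroup.card_dvd_of_le
    intro a ha
    rw [hX, mem_centralizer_singleton_iff]
    exact comm_of_exp_two (P := (P : Subgroup G)) (exp_two hG P) ha ht
  have hF := frob_count hG P ht ht1
  have cnt : ∀ p, [Fact p.Prime] → p ∈ [19, 11, 7, 5, 3] → p ≠ 2 → p ∣ Nat.card X →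
      ∃ d, (cls t).card ≡ d [MOD p] ∧ d * (2 * p) ∣ cc G p := by
    intro p _ hmem hp2 hd
    obtain ⟨y, hy⟩ := exists_prime_orderOf_dvd_card' p hd
    exact count_fix (ex_of hG hmem) hp2 htt ht1 (by rw [Subgroup.orderOf_coe, hy])
      (mem_centralizer_singleton_iff.1 y.2) (not_four_dvd_cc hG hmem)
  have c19 : 19 ∣ Nat.card X → (cls t).card % 19 = 1 ∨ (cls t).card % 19 = 11 := by
    intro hd
    obtain ⟨d, h1, m, h2⟩ := cnt 19 (by simp) (by norm_num) hd
    unfold Nat.ModEq at h1
    have h3 : cc G 19 = 38 * (d * m) := by rw [h2]; ring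
    have hdq : d ∣ d * m := Dvd.intro _ rfl
    generalize d * m = q at h3 hdq
    rcases h19 with h | h | h <;> rw [h] at h3
    · omega
    · have hq : q = 1 := by omega
      rw [hq, Nat.dvd_one] at hdq
      rw [hdq] at h1
      left
      rw [h1]
    · have hq : q = 11 := by omega
      rw [hq] at hdq
      rcases (Nat.dvd_prime (by norm_num)).1 hdq with h4 | h4 <;> rw [h4] at h1
      · left
        rw [h1]
      · right
        rw [h1]
  have c7 : 7 ∣ Nat.card X → (cls t).card % 7 = 1 := by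
    intro hd
    obtain ⟨d, h1, m, h2⟩ := cnt 7 (by simp) (by norm_num) hd
    unfold Nat.ModEq at h1
    have h3 : cc G 7 = 14 * (d * m) := by rw [h2]; ring
    have hdq : d ∣ d * m := Dvd.intro _ rfl
    generalize d * m = q at h3 hdq
    rcases h7 with h | h <;> rw [h] at h3
    · omega
    · have hq : q = 1 := by omega
      rw [hq, Nat.dvd_one] at hdq
      rw [hdq] at h1
      rw [h1]
  have c5 : 5 ∣ Nat.card X → (cls t).card % 5 = 1 ∨ (cls t).card % 5 = 3 := by
    intro hd
    obtain ⟨d, h1, m, h2⟩ := cnt 5 (by simp) (by norm_num) hd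
    unfold Nat.ModEq at h1
    have h3 : cc G 5 = 10 * (d * m) := by rw [h2]; ring
    have hdq : d ∣ d * m := Dvd.intro _ rfl
    generalize d * m = q at h3 hdq
    rcases h5 with h | h <;> rw [h] at h3
    · omega
    · have hq : q = 3 := by omega
      rw [hq] at hdq
      rcases (Nat.dvd_prime (by norm_num)).1 hdq with h4 | h4 <;> rw [h4] at h1
      · left
        rw [h1]
      · right
        rw [h1]
  obtain ⟨k, hk⟩ := h8
  rw [hk] at hI c19 c7 c5 ⊢
  have hIk : (cls t).card * k = 21945 := by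
    have : 8 * ((cls t).card * k) = 8 * 21945 := by
      rw [← mul_assoc, mul_comm 8, mul_assoc, hI]
    omega
  have hmem : (cls t).card ∈ Nat.divisors 21945 := Nat.mem_divisors.2 ⟨Dvd.intro _ hIk, by norm_num⟩
  have hall : ∀ d ∈ Nat.divisors 21945, 8 ∣ d + 1 → d = 7 ∨ d = 15 ∨ d = 55 ∨ d = 95 ∨ d = 231 ∨ d = 399 ∨
      d = 1463 ∨ d = 3135 := by decide +kernel
  have hcases := hall _ hmem hF
  generalize (cls t).card = I at hIk c19 c7 c5 hcases
  rcases hcases with rfl | rfl | rfl | rfl | rfl | rfl | rfl | rfl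
  · exfalso
    have hk' : k = 3135 := by omega
    subst hk'
    have := c19 (by norm_num)
    omega
  · exfalso
    have hk' : k = 1463 := by omega
    subst hk'
    have := c19 (by norm_num)
    omega
  · exfalso
    have hk' : k = 399 := by omega
    subst hk'
    have := c7 (by norm_num)
    omega
  · exfalso
    have hk' : k = 231 := by omega
    subst hk'
    have := c7 (by norm_num)
    omega
  · exfalso
    have hk' : k = 95 := by omega
    subst hk'
    have := c19 (by norm_num)
    omega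
  · exfalso
    have hk' : k = 55 := by omega
    subst hk'
    have := c5 (by norm_num)
    omega
  · omega
  · exfalso
    have hk' : k = 7 := by omega
    subst hk'
    have := c7 (by norm_num)
    omega

end Cfsg.Agent.Lib.J1Ord.O175
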