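import Mathlib
import Cfsg.Agent.Lib.J1Ord.O175Tab
import Cfsg.Agent.Lib.J1Ord.UniqGen

/-!
# A group of order 60 with self-centralizing Sylow `5`-subgroups which are not normal is simple
-/

set_option autoImplicit false

namespace Cfsg.Agent.Lib.J1Ord.O175

open Subgroup

universe u

/-- A unique Sylow `5`-subgroup contains all elements of order five. -/
theorem uniq_five {Γ : Type*} [Group Γ] [Finite Γ] (h25 : ¬ 25 ∣ Nat.card Γ) (L : Subgroup Γ)
    (hL : Nat.card (Sylow 5 L) = 1) [Fact (Nat.Prime 5)] {f f' : Γ} (hf : f ∈ L) (hf' : f' ∈ L) (ho : orderOf f = 5)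
    (ho' : orderOf f' = 5) : f' ∈ zpowers f := by
  haveI hsub : Subsingleton (Sylow 5 L) := (Nat.card_eq_one_iff_unique.1 hL).1
  let f₁ : L := ⟨f, hf⟩
  let f₂ : L := ⟨f', hf'⟩
  have ho1 : orderOf f₁ = 5 := by rw [Subgroup.orderOf_mk, ho]
  have ho2 : orderOf f₂ = 5 := by rw [Subgroup.orderOf_mk, ho']
  have hp1 : IsPGroup 5 (zpowers f₁) := IsPGroup.of_card (n := 1) (by rw [Nat.card_zpowers, ho1, pow_one])
  have hp2 : IsPGroup 5 (zpowers f₂) := IsPGroup.of_card (n := 1) (by rw [Nat.card_zpowers, ho2, pow_one])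
  obtain ⟨R₁, hR₁⟩ := hp1.exists_le_sylow
  obtain ⟨R₂, hR₂⟩ := hp2.exists_le_sylow
  have hRR : R₁ = R₂ := Subsingleton.elim _ _
  subst hRR
  have hcR : Nat.card R₁ ≤ 5 := by
    obtain ⟨k, hk⟩ := IsPGroup.iff_card.1 R₁.isPGroup'
    have hk' : Nat.card (R₁ : Subgroup L) = 5 ^ k := hk
    show Nat.card (R₁ : Subgroup L) ≤ 5
    rw [hk']
    rcases k with _ | _ | k
    · norm_num
    · norm_num
    · exfalso
      apply h25
      have h1 : Nat.card (R₁ : Subgroup L) ∣ Nat.card L := Subgroup.card_subgroup_dvd_card _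
      have h2 : Nat.card L ∣ Nat.card Γ := Subgroup.card_subgroup_dvd_card _
      refine Dvd.dvd.trans ?_ (h1.trans h2)
      rw [hk']
      exact ⟨5 ^ k, by ring⟩
  have he : zpowers f₁ = (R₁ : Subgroup L) := by
    apply Subgroup.eq_of_le_of_card_ge hR₁
    rw [Nat.card_zpowers, ho1]
    exact hcR
  have h3 : f₂ ∈ zpowers f₁ := by
    rw [he]
    exact hR₂ (mem_zpowers f₂)
  obtain ⟨k, hk⟩ := mem_zpowers_iff.1 h3
  refine mem_zpowers_iff.2 ⟨k, ?_⟩
  have := congrArg Subtype.val hk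
  simpa [f₁, f₂] using this

/-- The number of Sylow subgroups when the prime divides once. -/
theorem card_sylow_dvd {Γ : Type*} [Group Γ] [Finite Γ] {p : ℕ} [hp : Fact p.Prime] {m : ℕ}
    (hm : Nat.card Γ = p * m) (hpm : ¬ p ∣ m) : Nat.card (Sylow p Γ) ∣ m ∧ Nat.card (Sylow p Γ) % p = 1 := by
  obtain ⟨R₀⟩ : Nonempty (Sylow p Γ) := inferInstance
  have hcR : Nat.card R₀ = p := Cfsg.Agent.Lib.J1Ord.card_sylow_prime R₀ hm hpm
  have hidx : (R₀ : Subgroup Γ).index = m := by
    have h8 := Subgroup.card_mul_index (R₀ : Subgroup Γ)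
    have hcR' : Nat.card (R₀ : Subgroup Γ) = p := hcR
    rw [hcR', hm] at h8
    exact Nat.eq_of_mul_eq_mul_left hp.out.pos h8
  constructor
  · have := Sylow.card_dvd_index R₀
    rwa [hidx] at this
  · have hmod : Nat.card (Sylow p Γ) % p = 1 % p := card_sylow_modEq_one p Γ
    rwa [Nat.mod_eq_of_lt hp.out.one_lt] at hmod

/-- **The simplicity criterion in order sixty.** -/
theorem simple_of_sixty {Γ : Type*} [Group Γ] [Finite Γ] (hc : Nat.card Γ = 60)
    (hb : ∀ u f : Γ, u * u = 1 → u ≠ 1 → orderOf f = 5 → u * f = f * u → False)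
    (hcc : ∀ f : Γ, orderOf f = 5 → ∃ g : Γ, g * f * g⁻¹ ∉ zpowers f) : IsSimpleGroup Γ := by
  classical
  haveI h5 : Fact (Nat.Prime 5) := ⟨by norm_num⟩
  haveI h3 : Fact (Nat.Prime 3) := ⟨by norm_num⟩
  haveI h2 : Fact (Nat.Prime 2) := ⟨by norm_num⟩
  haveI hnt : Nontrivial Γ := (Finite.one_lt_card_iff_nontrivial).1 (by rw [hc]; norm_num)
  have h25 : ¬ 25 ∣ Nat.card Γ := by rw [hc]; norm_num
  have hcen : ∀ f : Γ, orderOf f = 5 → Nat.card (centralizer ({f} : Set Γ)) = 5 := by
    intro f hf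
    have hQp : IsPGroup 5 (zpowers f) := IsPGroup.of_card (n := 1) (by rw [Nat.card_zpowers, hf, pow_one])
    have hidx : (zpowers f).index = 12 := by
      have h8 := Subgroup.card_mul_index (zpowers f)
      rw [Nat.card_zpowers, hf, hc] at h8
      omega
    let Q : Sylow 5 Γ := hQp.toSylow (by rw [hidx]; norm_num)
    have hQc : (Q : Subgroup Γ) = zpowers f := rfl
    obtain ⟨hn1, hn2⟩ := card_sylow_dvd (Γ := Γ) (p := 5) (m := 12) (by rw [hc]) (by norm_num)
    have hnm : Nat.card (Sylow 5 Γ) ∈ Nat.divisors 12 := Nat.mem_divisors.2 ⟨hn1, by norm_num⟩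
    have hall : ∀ d ∈ Nat.divisors 12, d % 5 = 1 → d = 1 ∨ d = 6 := by decide
    have h0 : Nat.card (Sylow 5 Γ) = (normalizer ((Q : Subgroup Γ) : Set Γ)).index :=
      Sylow.card_eq_index_normalizer Q
    have hfC : f ∈ centralizer ({f} : Set Γ) := mem_centralizer_singleton_iff.2 rfl
    have h5C : 5 ∣ Nat.card (centralizer ({f} : Set Γ)) := by
      have := Subgroup.orderOf_dvd_natCard _ hfC
      rwa [hf] at this
    rcases hall _ hnm hn2 with h1 | h6
    · exfalso
      obtain ⟨g, hg⟩ := hcc f hf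
      apply hg
      haveI hsub : Subsingleton (Sylow 5 Γ) := (Nat.card_eq_one_iff_unique.1 h1).1
      have h8 : g • Q = Q := Subsingleton.elim _ _
      have h9 : g * f * g⁻¹ ∈ ((g • Q : Sylow 5 Γ) : Subgroup Γ) := by
        rw [Sylow.coe_subgroup_smul]
        exact ⟨f, mem_zpowers f, rfl⟩
      rw [h8] at h9
      exact h9
    · have hN : Nat.card (normalizer ((Q : Subgroup Γ) : Set Γ)) = 10 := by
        have h8 := Subgroup.card_mul_index (normalizer ((Q : Subgroup Γ) : Set Γ))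
        rw [← h0, h6, hc] at h8
        omega
      have hCN : centralizer ({f} : Set Γ) ≤ normalizer ((Q : Subgroup Γ) : Set Γ) := by
        intro x hx
        rw [mem_normalizer_iff, hQc]
        have hc1 : Commute x f := mem_centralizer_singleton_iff.1 hx
        intro y
        constructor
        · intro hy
          obtain ⟨k, rfl⟩ := mem_zpowers_iff.1 hy
          have e : x * f ^ k * x⁻¹ = f ^ k := by
            rw [(hc1.zpow_right k).eq]
            group
          rw [e]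
          exact zpow_mem (mem_zpowers f) k
        · intro hy
          obtain ⟨k, hk⟩ := mem_zpowers_iff.1 hy
          have e : y = f ^ k := by
            have h7 : x * f ^ k * x⁻¹ = f ^ k := by
              rw [(hc1.zpow_right k).eq]
              group
            have h9 : x * y * x⁻¹ = x * f ^ k * x⁻¹ := by rw [h7]; exact hk.symm
            simpa using h9
          rw [e]
          exact zpow_mem (mem_zpowers f) k
      have hd : Nat.card (centralizer ({f} : Set Γ)) ∣ 10 := by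
        rw [← hN]
        exact Subgroup.card_dvd_of_le hCN
      have hm : Nat.card (centralizer ({f} : Set Γ)) ∈ Nat.divisors 10 := Nat.mem_divisors.2 ⟨hd, by norm_num⟩
      have hall2 : ∀ d ∈ Nat.divisors 10, 5 ∣ d → d = 5 ∨ d = 10 := by decide
      rcases hall2 _ hm h5C with h7 | h7
      · exact h7
      · exfalso
        obtain ⟨u, hu⟩ := exists_prime_orderOf_dvd_card' (G := centralizer ({f} : Set Γ)) 2 (by rw [h7]; norm_num)
        have hu2 : (u : Γ) * u = 1 := by
          rw [← pow_two, ← hu, ← Subgroup.orderOf_coe]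
          exact pow_orderOf_eq_one _
        have hu1 : (u : Γ) ≠ 1 := by
          intro h
          have : orderOf (u : Γ) = 1 := by rw [h, orderOf_one]
          rw [Subgroup.orderOf_coe, hu] at this
          omega
        exact hb u f hu2 hu1 hf (mem_centralizer_singleton_iff.1 u.2)
  obtain ⟨f₀, hf₀⟩ := exists_prime_orderOf_dvd_card' (G := Γ) 5 (by rw [hc]; norm_num)
  have hB : ∀ Y : Subgroup Γ, Y.Normal → ¬ 5 ∣ Nat.card Y → Nat.card Y % 5 = 1 := by
    intro Y hY h5Y
    have hf5 : f₀ ^ 5 = 1 := by rw [← hf₀, pow_orderOf_eq_one]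
    have hnY : ∀ x, x ∈ Y ↔ f₀ * x * f₀⁻¹ ∈ Y := by
      intro x
      constructor
      · exact fun h => hY.conj_mem x h f₀
      · intro h
        have h1 := hY.conj_mem _ h f₀⁻¹
        simpa [mul_assoc] using h1
    have hm := card_inf_cen_mod hf5 Y hnY
    have hD1 : Nat.card ↥(Y ⊓ centralizer ({f₀} : Set Γ)) ∣ 5 := by
      rw [← hcen f₀ hf₀]
      exact Subgroup.card_dvd_of_le inf_le_right
    have hD2 : Nat.card ↥(Y ⊓ centralizer ({f₀} : Set Γ)) ∣ Nat.card Y := Subgroup.card_dvd_of_le inf_le_left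
    rcases (Nat.dvd_prime (by norm_num)).1 hD1 with h | h
    · rw [h] at hm
      exact hm
    · rw [h] at hD2
      exact absurd hD2 h5Y
  have hC : ∀ Y : Subgroup Γ, Y.Normal → 5 ∣ Nat.card Y → Nat.card Y = 60 := by
    intro Y hY h5Y
    by_contra hne
    obtain ⟨f₁, hf₁⟩ := exists_prime_orderOf_dvd_card' (G := Y) 5 h5Y
    have hf : orderOf (f₁ : Γ) = 5 := by rw [Subgroup.orderOf_coe, hf₁]
    obtain ⟨g, hg⟩ := hcc f₁ hf
    have hf' : orderOf (g * (f₁ : Γ) * g⁻¹) = 5 := by
      rw [← hf]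
      have e : g * (f₁ : Γ) * g⁻¹ = MulAut.conj g (f₁ : Γ) := rfl
      rw [e, MulEquiv.orderOf_eq]
    have hm' : g * (f₁ : Γ) * g⁻¹ ∈ Y := hY.conj_mem _ f₁.2 g
    apply hg
    have hYd : Nat.card Y ∣ 60 := by
      rw [← hc]
      exact Subgroup.card_subgroup_dvd_card _
    have hYm : Nat.card Y ∈ Nat.divisors 60 := Nat.mem_divisors.2 ⟨hYd, by norm_num⟩
    have hall : ∀ d ∈ Nat.divisors 60, 5 ∣ d → d = 5 ∨ d = 10 ∨ d = 15 ∨ d = 20 ∨ d = 30 ∨ d = 60 := by decide
    have key : ∀ (L : Subgroup Γ) (m : ℕ), Nat.card L = 5 * m → ¬ 5 ∣ m → (∀ d ∈ Nat.divisors m, d % 5 = 1 → d = 1) →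
        m ≠ 0 → (f₁ : Γ) ∈ L → g * (f₁ : Γ) * g⁻¹ ∈ L → g * (f₁ : Γ) * g⁻¹ ∈ zpowers (f₁ : Γ) := by
      intro L m hLc hm5 hmd hm0 h1 h2
      obtain ⟨hn1, hn2⟩ := card_sylow_dvd (Γ := L) (p := 5) (m := m) hLc hm5
      have hn := hmd _ (Nat.mem_divisors.2 ⟨hn1, hm0⟩) hn2
      exact uniq_five h25 L hn h1 h2 hf hf'
    rcases hall _ hYm h5Y with h | h | h | h | h | h
    · exact key Y 1 (by rw [h]) (by norm_num) (by decide) (by norm_num) f₁.2 hm'
    · exact key Y 2 (by rw [h]) (by norm_num) (by decide) (by norm_num) f₁.2 hm'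
    · exact key Y 3 (by rw [h]) (by norm_num) (by decide) (by norm_num) f₁.2 hm'
    · exact key Y 4 (by rw [h]) (by norm_num) (by decide) (by norm_num) f₁.2 hm'
    · obtain ⟨τ, hτ⟩ := exists_prime_orderOf_dvd_card' (G := Y) 2 (by rw [h]; norm_num)
      have hτ2 : (τ : Γ) * τ = 1 := by
        rw [← pow_two, ← hτ, ← Subgroup.orderOf_coe]
        exact pow_orderOf_eq_one _
      have hτ1 : (τ : Γ) ≠ 1 := by
        intro h9
        have : orderOf (τ : Γ) = 1 := by rw [h9, orderOf_one]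
        rw [Subgroup.orderOf_coe, hτ] at this
        omega
      obtain ⟨R, -, hRc, hR⟩ := Cfsg.Agent.Lib.J1Ord.exists_odd_part Y τ.2 hτ2 hτ1 (r := 15) (by decide)
        (by rw [h])
      exact key R 3 (by rw [hRc]) (by norm_num) (by decide) (by norm_num)
        (hR _ f₁.2 (by rw [hf]; decide)) (hR _ hm' (by rw [hf']; decide))
    · exact absurd h hne
  refine ⟨fun Y hY => ?_⟩
  by_cases h5Y : 5 ∣ Nat.card Y
  · right
    exact Subgroup.eq_top_of_card_eq Y (by rw [hC Y hY h5Y, hc])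
  · have h1 := hB Y hY h5Y
    have hYd : Nat.card Y ∣ 60 := by
      rw [← hc]
      exact Subgroup.card_subgroup_dvd_card _
    have hYm : Nat.card Y ∈ Nat.divisors 60 := Nat.mem_divisors.2 ⟨hYd, by norm_num⟩
    have hall : ∀ d ∈ Nat.divisors 60, d % 5 = 1 → d = 1 ∨ d = 6 := by decide
    rcases hall _ hYm h1 with h | h
    · left
      exact Subgroup.eq_bot_of_card_eq Y h
    · exfalso
      haveI := hY
      obtain ⟨hn1, hn2⟩ := card_sylow_dvd (Γ := Y) (p := 3) (m := 2) (by rw [h]) (by norm_num)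
      have hnm : Nat.card (Sylow 3 Y) ∈ Nat.divisors 2 := Nat.mem_divisors.2 ⟨hn1, by norm_num⟩
      have hall3 : ∀ d ∈ Nat.divisors 2, d % 3 = 1 → d = 1 := by decide
      have hone := hall3 _ hnm hn2
      haveI hsub : Subsingleton (Sylow 3 Y) := (Nat.card_eq_one_iff_unique.1 hone).1
      obtain ⟨R⟩ : Nonempty (Sylow 3 Y) := inferInstance
      have hcR : Nat.card R = 3 := Cfsg.Agent.Lib.J1Ord.card_sylow_prime R (m := 2) (by rw [h]) (by norm_num)
      let R' : Subgroup Γ := (R : Subgroup Y).map Y.subtype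
      have hcR' : Nat.card R' = 3 := by
        show Nat.card ((R : Subgroup Y).map Y.subtype) = 3
        rw [Subgroup.card_map_of_injective Y.subtype_injective]
        exact hcR
      have hR'n : R'.Normal := by
        refine ⟨?_⟩
        rintro _ ⟨x, hx, rfl⟩ g
        have h8 : (MulAut.conjNormal g : MulAut Y) • R = R := Subsingleton.elim _ _
        have h9 := Subgroup.smul_mem_pointwise_smul x (MulAut.conjNormal g : MulAut Y) (R : Subgroup Y) hx
        rw [← Sylow.pointwise_smul_def, h8] at h9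
        refine ⟨_, h9, ?_⟩
        exact MulAut.conjNormal_apply g x
      have := hB R' hR'n (by rw [hcR']; norm_num)
      rw [hcR'] at this
      omega

end Cfsg.Agent.Lib.J1Ord.O175
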